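import Cfsg.Agent.H99.TensorS.Radical

/-!
When only scalars occur in the middle parts of the radicals: an element mapping a layer to a layer is a pure tensor.
-/

set_option autoImplicit false
set_option linter.unusedSectionVars false

namespace Cfsg.Agent.H99.TensorS

open Matrix Tensor
open scoped Kronecker

variable {F : Type*} [Field F] {α : Type} [Fintype α] [DecidableEq α] {b : ℕ} {JA : Matrix α α F}
  {JB : Matrix (Fin b) (Fin b) F}

local notation "Ix" => α × Fin b

theorem phi_eq_rgt (hB : SympMat JB) (φ : Fin b → F) : phi α JB (φ ᵥ* JB⁻¹) = rgt α φ := by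
  rw [phi, vecMul_vecMul, nonsing_inv_mul JB hB.unit, vecMul_one]

/-- The contraction of a matrix along two vectors of the second factor. -/
def ct (α : Type) [Fintype α] [DecidableEq α] (JB : Matrix (Fin b) (Fin b) F)
    (X : Matrix (α × Fin b) (α × Fin b) F) (u w : Fin b → F) : Matrix α α F :=
  phi α JB u * X * lft α w

theorem ct_one (u w : Fin b → F) : ct α JB (1 : Matrix Ix Ix F) u w = bf JB u w • (1 : Matrix α α F) := by
  rw [ct, Matrix.mul_one, phi_lft]

theorem ct_add (X Y : Matrix Ix Ix F) (u w : Fin b → F) : ct α JB (X + Y) u w = ct α JB X u w + ct α JB Y u w := by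
  rw [ct, ct, ct, Matrix.mul_add, Matrix.add_mul]

theorem ct_smul_right (c : F) (X : Matrix Ix Ix F) (u w : Fin b → F) :
    ct α JB X u (c • w) = c • ct α JB X u w := by
  rw [ct, ct, lft_smul, Matrix.mul_smul]

theorem ct_add_right (X : Matrix Ix Ix F) (u w w' : Fin b → F) :
    ct α JB X u (w + w') = ct α JB X u w + ct α JB X u w' := by
  rw [ct, ct, ct, lft_add, Matrix.mul_add]

theorem ct_smul_left (c : F) (X : Matrix Ix Ix F) (u w : Fin b → F) :
    ct α JB X (c • u) w = c • ct α JB X u w := by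
  rw [ct, ct, phi_smul, Matrix.smul_mul, Matrix.smul_mul]

theorem ct_add_left (X : Matrix Ix Ix F) (u u' w : Fin b → F) :
    ct α JB X (u + u') w = ct α JB X u w + ct α JB X u' w := by
  rw [ct, ct, ct, phi_add, Matrix.add_mul, Matrix.add_mul]

theorem ct_sub_left (X : Matrix Ix Ix F) (u u' w : Fin b → F) :
    ct α JB X (u - u') w = ct α JB X u w - ct α JB X u' w := by
  rw [sub_eq_add_neg, ct_add_left, ← neg_one_smul F u', ct_smul_left, neg_one_smul, ← sub_eq_add_neg]

variable {Q : (α × Fin b → F) → F} {M : Subgroup (GL (α × Fin b) F)} (H : Over JA JB Q M)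
include H

theorem Over.adjJ_adjJ (X : Matrix Ix Ix F) :
    adj (JA ⊗ₖ JB) (JA ⊗ₖ JB) (adj (JA ⊗ₖ JB) (JA ⊗ₖ JB) X) = X := by
  rw [adj_adj H.unitJ H.unitJ (ε₁ := 1) (ε₂ := 1) (by rw [H.skewJ, one_smul]) (by rw [H.skewJ, one_smul])
    (one_mul 1), one_mul, one_smul]

theorem Over.adj_ct (X : Matrix Ix Ix F) (u w : Fin b → F) :
    adj JA JA (ct α JB X u w) = -ct α JB (adj (JA ⊗ₖ JB) (JA ⊗ₖ JB) X) w u := by
  rw [ct, ct, adj_mul H.unitJ, adjA_lft H.sA, adj_mul H.unitJ, H.adj_phi, Matrix.mul_neg, Matrix.mul_neg,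
    Matrix.mul_assoc]

theorem Over.isPure_adj {X : Matrix Ix Ix F} (h : IsPure (adj (JA ⊗ₖ JB) (JA ⊗ₖ JB) X)) : IsPure X := by
  obtain ⟨g, k, hgk⟩ := h
  exact ⟨adj JA JA g, adj JB JB k, by rw [← adj_kron, ← hgk, H.adjJ_adjJ]⟩

variable [Nonempty α] (hsc : ∀ C : Matrix α α F, InK JA JB M C → ∃ c : F, C = c • (1 : Matrix α α F))
include hsc

/-- An element mapping a layer to a layer maps the neighbouring layers to layers. -/
theorem Over.layer_image {z z₂ : Fin b → F} (hz0 : z ≠ 0) (hz₂0 : z₂ ≠ 0) {X : Matrix Ix Ix F} (hX : InM M X)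
    {h : Matrix α α F} (hh : X * lft α z = lft α z₂ * h) (hdet : IsUnit h.det) {η : Fin b → F}
    (hη : bf JB z η = 0) : ∃ u : Fin b → F, X * lft α η = lft α u * h := by
  by_cases hηz : ∀ t : F, η ≠ t • z
  swap
  · push Not at hηz
    obtain ⟨t, rfl⟩ := hηz
    exact ⟨t • z₂, by rw [lft_smul, lft_smul, Matrix.mul_smul, hh, Matrix.smul_mul]⟩
  obtain ⟨i⟩ := ‹Nonempty α›
  set J := JA ⊗ₖ JB with hJ
  -- a scalar product
  obtain ⟨μ, hμ⟩ : ∃ μ : F, h * adj JA JA h = μ • (1 : Matrix α α F) := by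
    have h1 : InM M (el JA JB z 0 1) := by
      have := H.right z 1
      rwa [one_smul, kronecker_add, one_kronecker_one, ← el_scalar (JA := JA)] at this
    have h2 := H.el_conj hX hh h1
    rw [Matrix.mul_zero, Matrix.zero_mul, Matrix.mul_one] at h2
    exact H.layer_scalar hsc hz₂0 h2
  have hμ0 : μ ≠ 0 := by
    intro h0
    have := congrArg Matrix.det hμ
    rw [h0, zero_smul, det_mul, adj_det H.sA.unit, det_zero] at this
    exact (hdet.mul hdet).ne_zero this
  have hμ' : adj JA JA h * h = μ • (1 : Matrix α α F) := by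
    have e : (μ⁻¹ • adj JA JA h) * h = 1 := mul_eq_one_comm.1 (by
      rw [Matrix.mul_smul, hμ, smul_smul, inv_mul_cancel₀ hμ0, one_smul])
    rw [Matrix.smul_mul] at e
    rw [← e, smul_smul, mul_inv_cancel₀ hμ0, one_smul]
  have hh' : phi α JB z * adj J J X = adj JA JA h * phi α JB z₂ := by
    rw [← adjA_lft H.sA z, ← H.adjA_mul_iso, hh, adjA_lft_mul H.sA]
  -- the middle part
  set A := X * lft α η * adj JA JA h with hA
  have hel : InM M (el JA JB z₂ A 0) := by
    have h1 := H.root (α := α) hη 0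
    rw [nil, zero_smul, add_zero, kronecker_add, ← add_assoc] at h1
    have h2 := H.el_conj hX hh (A := lft α η * (1 : Matrix α α F)) (G := 0) (by
      rw [el_lft H.sA, adj_one H.sA.unit, zero_kronecker, add_zero]; exact h1)
    rwa [Matrix.mul_one, Matrix.mul_zero, Matrix.zero_mul, ← hA] at h2
  have hzA : phi α JB z₂ * A = 0 := by
    have e : adj JA JA h * (phi α JB z₂ * A) = 0 := by
      rw [← Matrix.mul_assoc, ← hh', hA, Matrix.mul_assoc (phi α JB z), ← Matrix.mul_assoc (adj J J X),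
        ← Matrix.mul_assoc (adj J J X), H.unit hX, Matrix.one_mul, ← Matrix.mul_assoc, phi_lft, hη, zero_smul,
        Matrix.zero_mul]
    have := congrArg (h * ·) e
    rw [← Matrix.mul_assoc, hμ, Matrix.mul_zero, Matrix.smul_mul, Matrix.one_mul, smul_eq_zero] at this
    exact this.resolve_left hμ0
  clear_value A
  obtain ⟨z', hz'⟩ := H.sB.exists_one (u := -z₂) (neg_ne_zero.2 hz₂0)
  have hz'2 : bf JB z' z₂ = 1 := by
    rw [H.sB.swap z₂ z', ← hz', ← neg_one_smul F z₂, bf_smul_left, neg_one_mul]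
  set K := phi α JB z' * A with hK
  obtain ⟨u, hu⟩ := eq_lft (A - lft α z₂ * K) fun φ => by
    set ξ := φ ᵥ* JB⁻¹ with hξ
    have hξ₀ : bf JB z₂ (ξ - bf JB ξ z₂ • z') = 0 := by
      rw [H.sB.zero_comm, bf_sub_left, bf_smul_left, hz'2, mul_one, sub_self]
    obtain ⟨c, hc⟩ := H.el_contract hsc hz₂0 hzA hel hξ₀
    refine ⟨c, ?_⟩
    rw [← hc, ← phi_eq_rgt H.sB φ, ← hξ, sub_eq_add_neg ξ, phi_add, ← neg_smul, phi_smul, Matrix.mul_sub,
      ← Matrix.mul_assoc, phi_lft, hK, Matrix.add_mul, Matrix.smul_mul, Matrix.smul_mul, Matrix.one_mul, neg_smul,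
      sub_eq_add_neg]
  have hsum : A = lft α u + lft α z₂ * K := eq_add_of_sub_eq hu
  have hu0 : bf JB z₂ u = 0 := by
    have := congrArg (phi α JB z₂ * ·) hu
    rw [Matrix.mul_sub, hzA, ← Matrix.mul_assoc, phi_lft, phi_lft, H.sB.self, zero_smul, Matrix.zero_mul,
      sub_zero] at this
    simpa using (congrFun (congrFun this i) i).symm
  have hXh : X * lft α η = μ⁻¹ • (A * h) := by
    rw [hA, Matrix.mul_assoc (X * lft α η), hμ', Matrix.mul_smul, Matrix.mul_one, smul_smul, inv_mul_cancel₀ hμ0,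
      one_smul]
  have huz : ∀ t : F, u ≠ t • z₂ := by
    rintro t rfl
    have hinj : lft α η = lft α z * ((μ⁻¹ * μ⁻¹) • (adj JA JA h * ((t • (1 : Matrix α α F) + K) * h))) := by
      have e : X * lft α η = X * (lft α z * ((μ⁻¹ * μ⁻¹) • (adj JA JA h * ((t • (1 : Matrix α α F) + K) * h)))) := by
        rw [hXh, hsum, lft_smul, Matrix.mul_smul, Matrix.mul_smul, ← Matrix.mul_assoc X, hh, Matrix.mul_assoc (lft α z₂),
          ← Matrix.mul_assoc h, hμ, Matrix.smul_mul, Matrix.one_mul, Matrix.mul_smul, smul_smul, Matrix.add_mul,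
          Matrix.add_mul, Matrix.mul_add, Matrix.smul_mul, Matrix.smul_mul, Matrix.one_mul, Matrix.mul_smul,
          Matrix.mul_assoc (lft α z₂) K]
        rw [mul_assoc, inv_mul_cancel₀ hμ0, mul_one]
      have := congrArg (adj J J X * ·) e
      rwa [← Matrix.mul_assoc, ← Matrix.mul_assoc, H.unit hX, Matrix.one_mul, Matrix.one_mul] at this
    obtain ⟨e, -, hez, heη⟩ := H.sB.sep₁ hηz
    have := congrArg (phi α JB e * ·) hinj
    rw [phi_lft, ← Matrix.mul_assoc, phi_lft, hez, heη, zero_smul, one_smul, Matrix.zero_mul] at this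
    exact one_ne_zero this
  have hel2 : InM M (el JA JB z₂ (lft α u * (μ⁻¹ • adj JA JA K)) (μ⁻¹ • (K * adj JA JA K))) := by
    have h1 : InM M (1 + lft α η * phi α JB η) := by
      have := H.right (α := α) η 1
      rwa [one_smul, kronecker_add, one_kronecker_one, ← lft_phi] at this
    have h2 := H.conj h1 hX
    rw [← hJ, ← Matrix.mul_assoc X, Matrix.mul_assoc (X * lft α η), ← adjA_lft H.sA η, ← H.adjA_mul_iso, hXh,
      adjA_smul, adjA_mul H.sA, Matrix.smul_mul, Matrix.mul_smul, smul_smul, Matrix.mul_assoc A h,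
      ← Matrix.mul_assoc h, hμ, Matrix.smul_mul, Matrix.one_mul, Matrix.mul_smul, smul_smul, mul_assoc,
      inv_mul_cancel₀ hμ0, mul_one] at h2
    have h3 : InM M (1 - μ⁻¹ • (lft α u * phi α JB u)) := by
      have := H.right (α := α) u (-μ⁻¹)
      rw [kronecker_add, one_kronecker_one, kronecker_smul, ← lft_phi, neg_smul] at this
      rwa [sub_eq_add_neg]
    have h4 := h3.mul h2
    convert h4 using 1
    have k0 : ∀ T : Matrix α Ix F, phi α JB u * (lft α u * T) = 0 := fun T => by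
      rw [← Matrix.mul_assoc, phi_lft, H.sB.self, zero_smul, Matrix.zero_mul]
    have k1 : ∀ T : Matrix α Ix F, phi α JB u * (lft α z₂ * T) = 0 := fun T => by
      rw [← Matrix.mul_assoc, phi_lft, H.sB.zero_comm.1 hu0, zero_smul, Matrix.zero_mul]
    rw [el, adjA_lft_mul H.sA, adj_smul, adj_self_adj H.sA, hsum, adj_add, adjA_lft H.sA, adjA_lft_mul H.sA]
    simp only [Matrix.mul_add, Matrix.add_mul, Matrix.sub_mul, Matrix.smul_mul, Matrix.mul_smul, Matrix.mul_assoc,
      k0, k1, Matrix.one_mul, Matrix.mul_one, Matrix.mul_zero, smul_zero, smul_add, sub_zero, add_zero]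
    abel
  obtain ⟨k, hk⟩ := hsc _ (H.inK_of hz₂0 hu0 huz hel2)
  have hK' : K = (μ * k) • (1 : Matrix α α F) := by
    have := congrArg (fun Z => adj JA JA (μ • Z)) hk
    simp only [smul_smul, mul_inv_cancel₀ hμ0, one_smul, adj_self_adj H.sA, adj_smul, adj_one H.sA.unit] at this
    exact this
  refine ⟨μ⁻¹ • (u + (μ * k) • z₂), ?_⟩
  rw [hXh, hsum, hK', Matrix.mul_smul, Matrix.mul_one, lft_smul, lft_add, lft_smul, Matrix.smul_mul]

/-- An element mapping a layer to a layer is a pure tensor. -/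
theorem Over.pure_of_layer {z z₂ : Fin b → F} (hz0 : z ≠ 0) (hz₂0 : z₂ ≠ 0) {X : Matrix Ix Ix F} (hX : InM M X)
    {h : Matrix α α F} (hh : X * lft α z = lft α z₂ * h) (hdet : IsUnit h.det) : IsPure X := by
  obtain ⟨i⟩ := ‹Nonempty α›
  obtain ⟨z', hz'⟩ := H.sB.exists_one hz0
  obtain ⟨η₀, hη₀0, hp⟩ := exists_perp (J := JB) ![z, z'] (by simp; have := H.six; omega)
  have hzη : bf JB z η₀ = 0 := hp 0
  have hz'η : bf JB η₀ z' = 0 := H.sB.zero_comm.1 (hp 1)
  obtain ⟨f₀, hf₀⟩ := H.layer_image hsc hz0 hz₂0 hX hh hdet hzη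
  have hf₀0 : f₀ ≠ 0 := by
    intro h0
    rw [h0, lft_zero, Matrix.zero_mul] at hf₀
    have := congrArg (adj (JA ⊗ₖ JB) (JA ⊗ₖ JB) X * ·) hf₀
    rw [← Matrix.mul_assoc, H.unit hX, Matrix.one_mul, Matrix.mul_zero] at this
    obtain ⟨k, hk⟩ := Function.ne_iff.1 hη₀0
    exact hk (by simpa [lft_apply] using congrFun (congrFun this (i, k)) i)
  have hall : ∀ v : Fin b → F, ∃ u : Fin b → F, X * lft α v = lft α u * h := by
    intro v
    obtain ⟨u₁, hu₁⟩ := H.layer_image hsc hz0 hz₂0 hX hh hdet (η := v - bf JB z v • z')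
      (by rw [bf_sub_right, bf_smul_right, hz']; ring)
    obtain ⟨u₂, hu₂⟩ := H.layer_image hsc hη₀0 hf₀0 hX hf₀ hdet (η := bf JB z v • z')
      (by rw [bf_smul_right, hz'η, mul_zero])
    refine ⟨u₁ + u₂, ?_⟩
    rw [lft_add, Matrix.add_mul, ← hu₁, ← hu₂, ← Matrix.mul_add, ← lft_add, sub_add_cancel]
  choose f hf using hall
  refine ⟨h, Matrix.of fun k l => f (Pi.single l 1) k, ?_⟩
  ext ⟨j, k⟩ ⟨i', l⟩
  have e := congrFun (congrFun (hf (Pi.single l 1)) (j, k)) i'
  rw [mul_lft_single] at e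
  rw [e]
  simp only [Matrix.mul_apply, lft_apply, kroneckerMap_apply, Matrix.of_apply]
  rw [Finset.sum_eq_single j (fun c _ hc => by simp [Ne.symm hc]) (by simp)]
  simp [mul_comm]

/-- Contractions of elements that are not pure do not vanish. -/
theorem Over.ct_ne {X : Matrix Ix Ix F} (hX : InM M X) (hnp : ¬ IsPure X) {x₁ z : Fin b → F} (hx0 : x₁ ≠ 0)
    (hz0 : z ≠ 0) : ct α JB X x₁ z ≠ 0 := by
  intro hzero
  obtain ⟨i⟩ := ‹Nonempty α›
  set J := JA ⊗ₖ JB with hJ
  set Y := adj J J X * lft α x₁ with hY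
  set K := phi α JB x₁ * X with hK
  have hKz : K * lft α z = 0 := hzero
  have hKY : adj JA J Y = K := by rw [hY, H.adjA_mul_iso, adjA_lft H.sA, H.adjJ_adjJ]
  have hYinj : ∀ T : Matrix α α F, Y * T = 0 → T = 0 := fun T hT => by
    have e := congrArg (X * ·) hT
    rw [hY, ← Matrix.mul_assoc, ← Matrix.mul_assoc, H.unit' hX, Matrix.one_mul, Matrix.mul_zero] at e
    exact lft_injective hx0 (e.trans (Matrix.mul_zero _).symm)
  set S := (1 : Matrix Ix Ix F) + Y * K with hS
  have hSM : InM M S := by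
    have h1 : InM M (1 + lft α x₁ * phi α JB x₁) := by
      have := H.right (α := α) x₁ 1
      rwa [one_smul, kronecker_add, one_kronecker_one, ← lft_phi] at this
    have h2 := H.conj h1 (H.inv hX)
    rwa [H.adjJ_adjJ, ← hJ, ← Matrix.mul_assoc (adj J J X), Matrix.mul_assoc, ← hY, ← hK] at h2
  have hSz : S * lft α z = lft α z * (1 : Matrix α α F) := by
    rw [hS, Matrix.add_mul, Matrix.one_mul, Matrix.mul_one, Matrix.mul_assoc, hKz, Matrix.mul_zero, add_zero]
  have hkey : ∀ η η' : Fin b → F, bf JB z η = 0 →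
      ∃ c : F, (phi α JB η' * Y) * (K * lft α η) = c • (1 : Matrix α α F) := by
    intro η η' hη
    obtain ⟨u, hu⟩ := H.layer_image hsc hz0 hz0 hSM hSz (by simp) hη
    refine ⟨bf JB η' u - bf JB η' η, ?_⟩
    have e := congrArg (phi α JB η' * ·) hu
    simp only [Matrix.mul_one, hS, Matrix.add_mul, Matrix.one_mul, Matrix.mul_add, phi_lft] at e
    rw [sub_smul, ← e, add_sub_cancel_left]
    simp only [Matrix.mul_assoc]
  have hKv : ∀ v : Fin b → F, K * lft α v = -adj JA JA (phi α JB v * Y) := fun v => by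
    rw [adj_mul H.unitJ, H.adj_phi, ← hJ, hKY, Matrix.mul_neg, neg_neg]
  obtain ⟨L₀, hL⟩ : ∃ L₀ : Matrix α α F, ∀ v : Fin b → F, ∃ c : F, K * lft α v = c • L₀ := by
    obtain ⟨z', hz'⟩ := H.sB.exists_one hz0
    by_cases hall : ∀ η, bf JB z η = 0 → K * lft α η = 0
    · refine ⟨K * lft α z', fun v => ⟨bf JB z v, ?_⟩⟩
      have := hall (v - bf JB z v • z') (by rw [bf_sub_right, bf_smul_right, hz']; ring)
      rw [sub_eq_add_neg, ← neg_smul, lft_add, lft_smul, Matrix.mul_add, Matrix.mul_smul, neg_smul,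
        add_neg_eq_zero] at this
      exact this
    push Not at hall
    obtain ⟨η, hη, hη0⟩ := hall
    have hinv : IsUnit (K * lft α η).det := by
      obtain ⟨k, hk⟩ : ∃ k : Fin b, phi α JB (Pi.single k (1 : F) ᵥ* JB⁻¹) * (Y * (K * lft α η)) ≠ 0 := by
        by_contra hc
        push Not at hc
        refine hη0 (hYinj _ ?_)
        ext ⟨j, k⟩ l
        have := congrFun (congrFun (hc k) j) l
        rwa [phi_eq_rgt H.sB, rgt_single_mul] at this
      obtain ⟨c, hc⟩ := hkey η (Pi.single k (1 : F) ᵥ* JB⁻¹) hη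
      rw [Matrix.mul_assoc] at hc
      have hc0 : c ≠ 0 := fun h0 => hk (by rw [hc, h0, zero_smul])
      rw [← Matrix.mul_assoc] at hc
      have := congrArg Matrix.det hc
      rw [det_mul, det_smul, det_one, mul_one] at this
      exact IsUnit.mk0 _ (right_ne_zero_of_mul (this ▸ pow_ne_zero _ hc0))
    refine ⟨adj JA JA (K * lft α η)⁻¹, fun v => ?_⟩
    obtain ⟨c, hc⟩ := hkey η v hη
    refine ⟨-c, ?_⟩
    have e := congrArg (· * (K * lft α η)⁻¹) hc
    simp only [Matrix.mul_nonsing_inv_cancel_right _ _ hinv, Matrix.smul_mul, Matrix.one_mul] at e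
    rw [hKv, e, adj_smul, neg_smul]
  have hL0 : IsUnit L₀.det := by
    rw [isUnit_iff_ne_zero]
    intro hdet
    obtain ⟨a, ha, haL⟩ := (Matrix.exists_vecMul_eq_zero_iff (M := L₀)).2 hdet
    have haK : a ᵥ* K = 0 := by
      funext ⟨j, k⟩
      obtain ⟨c, hc⟩ := hL (Pi.single k 1)
      have : a ᵥ* (K * lft α (Pi.single k (1 : F))) = 0 := by rw [hc, vecMul_smul, haL, smul_zero]
      have := congrFun this j
      simpa [vecMul, dotProduct, mul_lft_single] using this
    obtain ⟨x', hx'⟩ := H.sB.exists_one hx0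
    have := congrArg (· ᵥ* (adj J J X * lft α x')) haK
    simp only [vecMul_vecMul, zero_vecMul] at this
    rw [hK, Matrix.mul_assoc, ← Matrix.mul_assoc X, H.unit' hX, Matrix.one_mul, phi_lft, hx', one_smul,
      vecMul_one] at this
    exact ha this
  obtain ⟨ψ, hψ⟩ := eq_rgt (L₀⁻¹ * K) fun v => by
    obtain ⟨c, hc⟩ := hL v
    exact ⟨c, by rw [Matrix.mul_assoc, hc, Matrix.mul_smul, Matrix.nonsing_inv_mul _ hL0]⟩
  set ψ' := ψ ᵥ* JB⁻¹ with hψ'
  have hKψ : K = L₀ * phi α JB ψ' := by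
    rw [hψ', phi_eq_rgt H.sB, ← hψ, ← Matrix.mul_assoc, Matrix.mul_nonsing_inv _ hL0, Matrix.one_mul]
  have hlay : adj J J X * lft α x₁ = lft α ψ' * adj JA JA L₀ := by
    have := congrArg (adj J JA) hKψ
    rw [← hKY, H.adj_down, adj_mul H.sA.unit, H.adj_phi, Matrix.neg_mul, neg_inj] at this
    exact hY ▸ this
  have hdetL : IsUnit (adj JA JA L₀).det := by rw [adj_det H.sA.unit]; exact hL0
  have hψ0 : ψ' ≠ 0 := fun h0 => by
    rw [h0, lft_zero, Matrix.zero_mul] at hlay
    have := congrArg (X * ·) hlay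
    rw [← Matrix.mul_assoc, H.unit' hX, Matrix.one_mul, Matrix.mul_zero] at this
    obtain ⟨k, hk⟩ := Function.ne_iff.1 hx0
    exact hk (by simpa [lft_apply] using congrFun (congrFun this (i, k)) i)
  exact hnp (H.isPure_adj (H.pure_of_layer hsc hx0 hψ0 (H.inv hX) hlay hdetL))

end Cfsg.Agent.H99.TensorS
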