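import Cfsg.Agent.H99.TensorS.Basic
import Cfsg.Agent.H99.Tensor.Group

/-!
Groups of isometries of a quadratic form above the stabiliser of a decomposition as a tensor product of two
symplectic spaces: basic elements.
-/

set_option autoImplicit false
set_option linter.unusedSectionVars false

namespace Cfsg.Agent.H99.TensorS

open Matrix Tensor
open scoped Kronecker

variable {F : Type*} [Field F] {ι : Type} [Fintype ι] [DecidableEq ι]

/-- The rank one map `x ↦ bf v x • u`. -/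
def rk (J : Matrix ι ι F) (u v : ι → F) : Matrix ι ι F := vecMulVec u (v ᵥ* J)

variable {J : Matrix ι ι F}

theorem rk_mul (u v x y : ι → F) : rk J u v * rk J x y = bf J v x • rk J u y := by
  rw [rk, rk, rk, vecMulVec_mul_vecMulVec, vecMulVec_smul]; rfl

theorem rk_mulVec (u v x : ι → F) : rk J u v *ᵥ x = bf J v x • u := by
  rw [rk, vecMulVec_mulVec, op_smul_eq_smul]; rfl

theorem rk_add_left (u u' v : ι → F) : rk J (u + u') v = rk J u v + rk J u' v := add_vecMulVec _ _ _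

theorem rk_add_right (u v v' : ι → F) : rk J u (v + v') = rk J u v + rk J u v' := by
  rw [rk, add_vecMul, vecMulVec_add]; rfl

theorem rk_smul_left (c : F) (u v : ι → F) : rk J (c • u) v = c • rk J u v := smul_vecMulVec _ _ _

theorem rk_smul_right (c : F) (u v : ι → F) : rk J u (c • v) = c • rk J u v := by
  rw [rk, smul_vecMul, vecMulVec_smul]; rfl

theorem rk_zero_left (v : ι → F) : rk J 0 v = 0 := zero_vecMulVec _

theorem rk_zero_right (u : ι → F) : rk J u 0 = 0 := by rw [rk, zero_vecMul, vecMulVec_zero]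

theorem adj_rk (hJ : SympMat J) (u v : ι → F) : adj J J (rk J u v) = -rk J v u := by
  have e : J⁻¹ *ᵥ (v ᵥ* J) = -v := by
    rw [← mulVec_transpose, hJ.skew, neg_mulVec, mulVec_neg, mulVec_mulVec, nonsing_inv_mul J hJ.unit, one_mulVec]
  rw [adj, rk, rk, transpose_vecMulVec, mul_vecMulVec, e, vecMulVec_mul]
  ext i j
  simp [vecMulVec_apply]

theorem rk_conj (hJ : SympMat J) (X : Matrix ι ι F) (u v : ι → F) :
    X * rk J u v * adj J J X = rk J (X *ᵥ u) (X *ᵥ v) := by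
  rw [rk, rk, adj, mul_vecMulVec, vecMulVec_mul, vecMul_vecMul, ← Matrix.mul_assoc, ← Matrix.mul_assoc,
    mul_nonsing_inv J hJ.unit, Matrix.one_mul, ← vecMul_transpose X v, vecMul_vecMul]

theorem bf_mulVec (hJ : SympMat J) {X : Matrix ι ι F} (hX : adj J J X * X = 1) (u v : ι → F) :
    bf J (X *ᵥ u) (X *ᵥ v) = bf J u v := by
  have e : Xᵀ * J * X = J := by
    have := congrArg (J * ·) hX
    rwa [adj, ← Matrix.mul_assoc, ← Matrix.mul_assoc, ← Matrix.mul_assoc, mul_nonsing_inv J hJ.unit, Matrix.one_mul,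
      Matrix.mul_one] at this
  rw [bf, bf, ← vecMul_transpose, vecMul_vecMul, dotProduct_mulVec, vecMul_vecMul, e]

/-- The root matrix attached to a vector. -/
def nil (J : Matrix ι ι F) (w η : ι → F) (c : F) : Matrix ι ι F := rk J η w + rk J w η + c • rk J w w

theorem trans_unitary (hJ : SympMat J) (w : ι → F) (d : F) :
    adj J J (1 + d • rk J w w) * (1 + d • rk J w w) = 1 := by
  rw [adj_add, adj_smul, adj_rk hJ, adj_one hJ.unit]
  simp only [Matrix.add_mul, Matrix.mul_add, Matrix.one_mul, Matrix.mul_one, smul_neg, Matrix.neg_mul,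
    Matrix.smul_mul, Matrix.mul_smul, rk_mul, hJ.self, zero_smul, smul_zero, neg_zero, add_zero]
  abel

/-- A product of two transvections mapping a vector onto a multiple of another. -/
theorem exists_move {a c : ι → F} {μ : F} (hJ : SympMat J) (hca : bf J c a ≠ 0) (hμ : μ ≠ 0) :
    ∃ d e : F, ((1 + e • rk J a a) * (1 + d • rk J c c)) *ᵥ a = μ • c := by
  have hac : bf J a c ≠ 0 := fun h => hca (hJ.zero_comm.1 h)
  refine ⟨μ / bf J c a, -(μ * bf J a c)⁻¹, ?_⟩
  have hka : (1 + (μ / bf J c a) • rk J c c) *ᵥ a = a + μ • c := by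
    rw [add_mulVec, one_mulVec, smul_mulVec, rk_mulVec, smul_smul, div_mul_cancel₀ _ hca]
  rw [← mulVec_mulVec, hka, add_mulVec, one_mulVec, smul_mulVec, rk_mulVec, bf_add_right, hJ.self, bf_smul_right,
    zero_add, smul_smul, neg_mul, inv_mul_cancel₀ (mul_ne_zero hμ hac)]
  module

/-- A pure vector. -/
def pv {α β : Type} (x : α → F) (w : β → F) : α × β → F := fun p => x p.1 * w p.2

variable {α : Type} [Fintype α] [DecidableEq α] {b : ℕ} {JA : Matrix α α F} {JB : Matrix (Fin b) (Fin b) F}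

local notation "Ix" => α × Fin b

theorem rk_kron (x y : α → F) (w z : Fin b → F) :
    rk JA x y ⊗ₖ rk JB w z = rk (JA ⊗ₖ JB) (pv x w) (pv y z) := by
  ext ⟨p₁, p₂⟩ ⟨r₁, r₂⟩
  simp only [rk, kroneckerMap_apply, vecMulVec_apply, pv, vecMul, dotProduct, Fintype.sum_prod_type]
  calc x p₁ * (∑ i, y i * JA i r₁) * (w p₂ * ∑ j, z j * JB j r₂)
      = x p₁ * w p₂ * ((∑ i, y i * JA i r₁) * ∑ j, z j * JB j r₂) := by ring
    _ = _ := by
      rw [Finset.sum_mul_sum]
      congr 1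
      exact Finset.sum_congr rfl fun i _ => Finset.sum_congr rfl fun j _ => by ring

theorem bf_pv (x y : α → F) (w z : Fin b → F) :
    bf (JA ⊗ₖ JB) (pv x w) (pv y z) = bf JA x y * bf JB w z := by
  have e : pv x w ᵥ* (JA ⊗ₖ JB) = pv (x ᵥ* JA) (w ᵥ* JB) := by
    funext p
    simp only [vecMul, dotProduct, pv, Fintype.sum_prod_type, kroneckerMap_apply, Finset.sum_mul_sum]
    exact Finset.sum_congr rfl fun i _ => Finset.sum_congr rfl fun j _ => by ring
  simp only [bf, e]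
  simp only [dotProduct, pv, Fintype.sum_prod_type, Finset.sum_mul_sum]
  exact Finset.sum_congr rfl fun i _ => Finset.sum_congr rfl fun j _ => by ring

/-- The functional of a vector of the second factor, as a map to the first. -/
def phi (α : Type) [DecidableEq α] (JB : Matrix (Fin b) (Fin b) F) (z : Fin b → F) : Matrix α (α × Fin b) F :=
  rgt α (z ᵥ* JB)

theorem phi_lft (z w : Fin b → F) : phi α JB z * lft α w = bf JB z w • (1 : Matrix α α F) := rgt_mul_lft _ _

theorem lft_phi (w z : Fin b → F) : lft α w * phi α JB z = (1 : Matrix α α F) ⊗ₖ rk JB w z := lft_mul_rgt _ _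

theorem phi_add (z z' : Fin b → F) : phi α JB (z + z') = phi α JB z + phi α JB z' := by
  rw [phi, add_vecMul, rgt_add]; rfl

theorem phi_smul (c : F) (z : Fin b → F) : phi α JB (c • z) = c • phi α JB z := by
  rw [phi, smul_vecMul, rgt_smul]; rfl

theorem lft_mid_phi (G : Matrix α α F) (w z : Fin b → F) : lft α w * G * phi α JB z = G ⊗ₖ rk JB w z :=
  lft_mid_rgt _ _ _

/-- The setting. -/
structure Over (JA : Matrix α α F) (JB : Matrix (Fin b) (Fin b) F) (Q : (α × Fin b → F) → F)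
    (M : Subgroup (GL (α × Fin b) F)) : Prop where
  sA : SympMat JA
  sB : SympMat JB
  six : 6 ≤ b
  qpolar : ∀ u v, Q (u + v) = Q u + Q v + bf (JA ⊗ₖ JB) u v
  qpure : ∀ (x : α → F) (w : Fin b → F), Q (pv x w) = 0
  qiso : ∀ y ∈ M, ∀ v, Q ((y : Matrix (α × Fin b) (α × Fin b) F) *ᵥ v) = Q v
  left : ∀ (v : α → F) (d : F), InM M ((1 + d • rk JA v v) ⊗ₖ (1 : Matrix (Fin b) (Fin b) F))
  right : ∀ (w : Fin b → F) (d : F), InM M ((1 : Matrix α α F) ⊗ₖ (1 + d • rk JB w w))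

variable {Q : (α × Fin b → F) → F} {M : Subgroup (GL (α × Fin b) F)} (H : Over JA JB Q M)
include H

theorem Over.skewJ : (JA ⊗ₖ JB)ᵀ = JA ⊗ₖ JB := by
  rw [← kroneckerMap_transpose, H.sA.skew, H.sB.skew]
  ext p r
  simp [kroneckerMap_apply]

theorem Over.unitJ : IsUnit (JA ⊗ₖ JB).det := by
  rw [det_kronecker]
  exact (H.sA.unit.pow _).mul (H.sB.unit.pow _)

theorem Over.unit {X : Matrix Ix Ix F} (hX : InM M X) : adj (JA ⊗ₖ JB) (JA ⊗ₖ JB) X * X = 1 := by
  obtain ⟨y, hy, rfl⟩ := hX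
  have h : ∀ u v, bf (JA ⊗ₖ JB) ((y : Matrix Ix Ix F) *ᵥ u) ((y : Matrix Ix Ix F) *ᵥ v) = bf (JA ⊗ₖ JB) u v := by
    intro u v
    have e := H.qiso y hy (u + v)
    rw [mulVec_add, H.qpolar, H.qpolar, H.qiso y hy, H.qiso y hy] at e
    linear_combination e
  have e : (y : Matrix Ix Ix F)ᵀ * (JA ⊗ₖ JB) * (y : Matrix Ix Ix F) = JA ⊗ₖ JB := by
    refine Matrix.ext fun i j => ?_
    have := h (Pi.single i 1) (Pi.single j 1)
    rw [bf, bf, ← vecMul_transpose, vecMul_vecMul, dotProduct_mulVec, vecMul_vecMul] at this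
    simpa [dotProduct_single, single_vecMul] using this
  rw [adj, Matrix.mul_assoc, Matrix.mul_assoc, ← Matrix.mul_assoc (y : Matrix Ix Ix F)ᵀ, e,
    nonsing_inv_mul _ H.unitJ]

theorem Over.unit' {X : Matrix Ix Ix F} (hX : InM M X) : X * adj (JA ⊗ₖ JB) (JA ⊗ₖ JB) X = 1 :=
  mul_eq_one_comm.1 (H.unit hX)

theorem Over.inv {X : Matrix Ix Ix F} (hX : InM M X) : InM M (adj (JA ⊗ₖ JB) (JA ⊗ₖ JB) X) :=
  hX.inv (H.unit' hX)

theorem Over.conj {A X : Matrix Ix Ix F} (hA : InM M (1 + A)) (hX : InM M X) :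
    InM M (1 + X * A * adj (JA ⊗ₖ JB) (JA ⊗ₖ JB) X) :=
  hA.conj hX (H.unit' hX)

theorem Over.trans (w : Fin b → F) (d : F) : InM M (1 + (d • (1 : Matrix α α F)) ⊗ₖ rk JB w w) := by
  have := H.right w d
  rwa [kronecker_add, one_kronecker_one, kronecker_smul, ← smul_kronecker] at this

/-- The root elements of the second factor. -/
theorem Over.root {w η : Fin b → F} (hη : bf JB w η = 0) (c : F) :
    InM M (1 + (1 : Matrix α α F) ⊗ₖ nil JB w η c) := by
  have hη' := H.sB.zero_comm.1 hη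
  have := ((H.right (η + w) 1).mul (H.right η (-1))).mul (H.right w (c - 1))
  rw [← mul_kronecker_mul, ← mul_kronecker_mul, Matrix.one_mul, Matrix.one_mul] at this
  rw [← one_kronecker_one (α := F) (m := α) (n := Fin b), ← kronecker_add]
  convert this using 2
  simp only [nil, rk_add_left, rk_add_right, Matrix.mul_add, Matrix.add_mul, Matrix.one_mul, Matrix.mul_one,
    Matrix.smul_mul, Matrix.mul_smul, rk_mul, hη, hη', H.sB.self, zero_smul, smul_zero, add_zero]
  module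

theorem Over.right_move {a c : Fin b → F} {μ : F} (hca : bf JB c a ≠ 0) (hμ : μ ≠ 0) :
    ∃ k : Matrix (Fin b) (Fin b) F, InM M ((1 : Matrix α α F) ⊗ₖ k) ∧ adj JB JB k * k = 1 ∧ k *ᵥ a = μ • c := by
  obtain ⟨d, e, h⟩ := exists_move H.sB hca hμ
  refine ⟨_, ?_, ?_, h⟩
  · have := (H.right a e).mul (H.right c d)
    rwa [← mul_kronecker_mul, Matrix.one_mul] at this
  · rw [adj_mul H.sB.unit, Matrix.mul_assoc, ← Matrix.mul_assoc (adj JB JB (1 + e • rk JB a a)),
      trans_unitary H.sB, Matrix.one_mul, trans_unitary H.sB]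

theorem Over.left_move {a c : α → F} {μ : F} (hca : bf JA c a ≠ 0) (hμ : μ ≠ 0) :
    ∃ g : Matrix α α F, InM M (g ⊗ₖ (1 : Matrix (Fin b) (Fin b) F)) ∧ adj JA JA g * g = 1 ∧ g *ᵥ a = μ • c := by
  obtain ⟨d, e, h⟩ := exists_move H.sA hca hμ
  refine ⟨_, ?_, ?_, h⟩
  · have := (H.left a e).mul (H.left c d)
    rwa [← mul_kronecker_mul, Matrix.one_mul] at this
  · rw [adj_mul H.sA.unit, Matrix.mul_assoc, ← Matrix.mul_assoc (adj JA JA (1 + e • rk JA a a)),
      trans_unitary H.sA, Matrix.one_mul, trans_unitary H.sA]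

/-- The second factor is transitive on non-zero vectors. -/
theorem Over.right_map {a c : Fin b → F} (ha : a ≠ 0) (hc : c ≠ 0) {μ : F} (hμ : μ ≠ 0) :
    ∃ k : Matrix (Fin b) (Fin b) F, InM M ((1 : Matrix α α F) ⊗ₖ k) ∧ adj JB JB k * k = 1 ∧ k *ᵥ a = μ • c := by
  obtain ⟨u, hua, huc⟩ := H.sB.exists_common₂ ha hc
  obtain ⟨k₁, m₁, i₁, e₁⟩ := H.right_move hua one_ne_zero
  obtain ⟨k₂, m₂, i₂, e₂⟩ := H.right_move (a := u) (c := c) (fun h => huc (H.sB.zero_comm.1 h)) hμ
  refine ⟨k₂ * k₁, ?_, ?_, ?_⟩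
  · have := m₂.mul m₁
    rwa [← mul_kronecker_mul, Matrix.one_mul] at this
  · rw [adj_mul H.sB.unit, Matrix.mul_assoc, ← Matrix.mul_assoc (adj JB JB k₂), i₂, Matrix.one_mul, i₁]
  · rw [← mulVec_mulVec, e₁, one_smul, e₂]

/-- The first factor is transitive on non-zero vectors. -/
theorem Over.left_map {a c : α → F} (ha : a ≠ 0) (hc : c ≠ 0) {μ : F} (hμ : μ ≠ 0) :
    ∃ g : Matrix α α F, InM M (g ⊗ₖ (1 : Matrix (Fin b) (Fin b) F)) ∧ adj JA JA g * g = 1 ∧ g *ᵥ a = μ • c := by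
  obtain ⟨u, hua, huc⟩ := H.sA.exists_common₂ ha hc
  obtain ⟨k₁, m₁, i₁, e₁⟩ := H.left_move hua one_ne_zero
  obtain ⟨k₂, m₂, i₂, e₂⟩ := H.left_move (a := u) (c := c) (fun h => huc (H.sA.zero_comm.1 h)) hμ
  refine ⟨k₂ * k₁, ?_, ?_, ?_⟩
  · have := m₂.mul m₁
    rwa [← mul_kronecker_mul, Matrix.one_mul] at this
  · rw [adj_mul H.sA.unit, Matrix.mul_assoc, ← Matrix.mul_assoc (adj JA JA k₂), i₂, Matrix.one_mul, i₁]
  · rw [← mulVec_mulVec, e₁, one_smul, e₂]

/-- Conjugation of a product element by the two factors. -/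
theorem Over.conj_kron {G : Matrix α α F} {N : Matrix (Fin b) (Fin b) F} (h : InM M (1 + G ⊗ₖ N))
    {g : Matrix α α F} {k : Matrix (Fin b) (Fin b) F} (hX : InM M (g ⊗ₖ k)) :
    InM M (1 + (g * G * adj JA JA g) ⊗ₖ (k * N * adj JB JB k)) := by
  have := H.conj h hX
  rwa [adj_kron, ← mul_kronecker_mul, ← mul_kronecker_mul] at this

end Cfsg.Agent.H99.TensorS
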