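import Cfsg.Agent.H99.TensorS.Purity

/-!
Conjugates of root elements by elements that are not pure tensors are not pure tensors.
-/

set_option autoImplicit false
set_option linter.unusedSectionVars false

namespace Cfsg.Agent.H99.TensorS

open Matrix Tensor
open scoped Kronecker

variable {F : Type*} [Field F] {α : Type} [Fintype α] [DecidableEq α] {b : ℕ} {JA : Matrix α α F}
  {JB : Matrix (Fin b) (Fin b) F}

local notation "Ix" => α × Fin b

theorem kron_eq_one [Nonempty α] [NeZero b] {g : Matrix α α F} {h : Matrix (Fin b) (Fin b) F} (e : g ⊗ₖ h = 1) :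
    ∃ μ : F, μ ≠ 0 ∧ g = μ • (1 : Matrix α α F) ∧ h = μ⁻¹ • (1 : Matrix (Fin b) (Fin b) F) := by
  obtain ⟨i⟩ := ‹Nonempty α›
  have hij : ∀ (i j : α) (k l : Fin b), g i j * h k l = if i = j ∧ k = l then 1 else 0 := fun i j k l => by
    have := congrFun (congrFun e (i, k)) (j, l)
    simpa [Matrix.one_apply, Prod.ext_iff] using this
  have h0 := hij i i 0 0
  simp only [and_self, ↓reduceIte] at h0
  have hg : g i i ≠ 0 := left_ne_zero_of_mul_eq_one h0
  have hh : h 0 0 ≠ 0 := right_ne_zero_of_mul_eq_one h0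
  refine ⟨g i i, hg, ?_, ?_⟩
  · ext a c
    refine mul_right_cancel₀ hh ?_
    rw [hij, Matrix.smul_apply, Matrix.one_apply, smul_eq_mul]
    by_cases hac : a = c <;> simp [hac, h0]
  · ext k l
    refine mul_left_cancel₀ hg ?_
    rw [hij, Matrix.smul_apply, Matrix.one_apply, smul_eq_mul]
    by_cases hkl : k = l <;> simp [hkl, hg]

theorem phi_kron (hB : SympMat JB) (g : Matrix α α F) (h : Matrix (Fin b) (Fin b) F) (x : Fin b → F) :
    phi α JB x * (g ⊗ₖ h) = g * phi α JB (adj JB JB h *ᵥ x) := by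
  rw [phi, phi, rgt_kron, adj_vecMul hB]

variable {Q : (α × Fin b → F) → F} {M : Subgroup (GL (α × Fin b) F)} (H : Over JA JB Q M) [Nonempty α]
  (hsc : ∀ C : Matrix α α F, InK JA JB M C → ∃ c : F, C = c • (1 : Matrix α α F))
include H hsc

/-- A conjugate of a transvection. -/
theorem Over.conj_trans_not_pure (hab : Fintype.card α < b) {X : Matrix Ix Ix F} (hX : InM M X)
    (hnp : ¬ IsPure X) {z : Fin b → F} (hz0 : z ≠ 0) :
    ¬ IsPure (1 + X * (lft α z * phi α JB z) * adj (JA ⊗ₖ JB) (JA ⊗ₖ JB) X) := by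
  rintro ⟨g, k, hgk⟩
  set J := JA ⊗ₖ JB with hJ
  set Y := X * lft α z with hY
  have hY' : phi α JB z * adj J J X = adj JA J Y := by rw [hY, H.adjA_mul_iso, adjA_lft H.sA]
  have hinv : adj J J X * X = 1 := H.unit hX
  have key : ∀ x : Fin b → F, lft α (k *ᵥ x) * g - lft α x = Y * (adj JA J Y * lft α x) := by
    intro x
    have := congrArg (· * lft α x) hgk
    simp only [Matrix.add_mul, Matrix.one_mul, kron_lft] at this
    rw [← this, add_sub_cancel_left, hY, ← hY']
    simp only [Matrix.mul_assoc]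
  by_cases hs : ∃ c : F, k = c • (1 : Matrix (Fin b) (Fin b) F)
  · obtain ⟨c, rfl⟩ := hs
    set G := c • g - 1 with hG
    have hG0 : G ≠ 0 := by
      intro hG0
      have e : (1 : Matrix Ix Ix F) + X * (lft α z * phi α JB z) * adj J J X = 1 := by
        rw [hgk, kronecker_smul, ← smul_kronecker, sub_eq_zero.1 (hG ▸ hG0 : c • g - 1 = 0), one_kronecker_one]
      rw [add_eq_left] at e
      have e2 := congrArg (fun Z => adj J J X * Z * X) e
      simp only [← Matrix.mul_assoc, hinv, Matrix.one_mul, Matrix.mul_zero, Matrix.zero_mul] at e2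
      rw [Matrix.mul_assoc _ (adj J J X) X, hinv, Matrix.mul_one] at e2
      have e3 := lft_injective (α := α) (β := Fin b) (K := phi α JB z) (K' := (0 : Matrix α Ix F)) hz0
        (e2.trans (Matrix.mul_zero _).symm)
      exact H.sB.row_ne hz0 (rgt_eq_iff (α := α) (e3.trans rgt_zero.symm))
    obtain ⟨j, hj⟩ : ∃ j, G *ᵥ Pi.single j 1 ≠ 0 := by
      by_contra hc
      push Not at hc
      exact hG0 (Matrix.ext_of_mulVec_single fun j => by rw [hc j, Matrix.zero_mulVec])
    let f : (Fin b → F) →ₗ[F] (α → F) :=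
      { toFun := fun u => (adj JA J Y * lft α u) *ᵥ Pi.single j 1
        map_add' := fun u u' => by rw [lft_add, Matrix.mul_add, Matrix.add_mulVec]
        map_smul' := fun a u => by rw [lft_smul, Matrix.mul_smul, Matrix.smul_mulVec, RingHom.id_apply] }
    obtain ⟨u, hu, hu0⟩ := Submodule.exists_mem_ne_zero_of_ne_bot
      (LinearMap.ker_ne_bot_of_finrank_lt (f := f) (by simp; omega))
    have e : lft α ((c • (1 : Matrix (Fin b) (Fin b) F)) *ᵥ u) * g - lft α u = lft α u * G := by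
      rw [Matrix.smul_mulVec, Matrix.one_mulVec, lft_smul, hG, Matrix.mul_sub, Matrix.mul_one, Matrix.mul_smul,
        Matrix.smul_mul]
    have h2 : (lft α u * G) *ᵥ (Pi.single j 1 : α → F) = (Y * (adj JA J Y * lft α u)) *ᵥ Pi.single j 1 :=
      congrArg (· *ᵥ (Pi.single j 1 : α → F)) (e.symm.trans (key u))
    rw [← Matrix.mulVec_mulVec, ← Matrix.mulVec_mulVec,
      show (adj JA J Y * lft α u) *ᵥ Pi.single j 1 = 0 from hu, Matrix.mulVec_zero] at h2
    refine hj ?_
    obtain ⟨η, hη⟩ := exists_dual hu0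
    have h3 := congrArg (rgt α η *ᵥ ·) h2
    simp only [Matrix.mulVec_mulVec, Matrix.mulVec_zero] at h3
    rwa [← Matrix.mul_assoc, rgt_mul_lft, hη, one_smul, Matrix.one_mul] at h3
  · obtain ⟨w, hw⟩ := exists_not_eigen hs
    obtain ⟨η, hη0, hp⟩ := exists_perp (J := JB) ![w, k *ᵥ w] (by simp; have := H.six; omega)
    obtain ⟨η', hη'w, hη'k⟩ := H64.SLIndex.exists_dot' (u := w) (v := k *ᵥ w) hw
    have h1 := congrArg (rgt α η' * ·) (key w)
    simp only [Matrix.mul_sub] at h1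
    rw [← Matrix.mul_assoc, rgt_mul_lft, rgt_mul_lft, hη'w, hη'k, one_smul, Matrix.one_mul, zero_smul, sub_zero,
      ← Matrix.mul_assoc] at h1
    have h2 := congrArg (phi α JB η * ·) (key w)
    simp only [Matrix.mul_sub] at h2
    have q0 : bf JB η w = 0 := H.sB.zero_comm.1 (hp 0)
    have q1 : bf JB η (k *ᵥ w) = 0 := H.sB.zero_comm.1 (hp 1)
    rw [← Matrix.mul_assoc, phi_lft, phi_lft, q0, q1, zero_smul, Matrix.zero_mul, sub_self,
      ← Matrix.mul_assoc] at h2
    have hdet : g.det ≠ 0 := by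
      intro h0
      have hsq : (1 + X * (lft α z * phi α JB z) * adj J J X).det = 1 := by
        have e : X * (lft α z * phi α JB z) * adj J J X = Y * adj JA J Y := by
          rw [← hY', hY]
          simp only [Matrix.mul_assoc]
        rw [e, det_one_add_mul_comm, ← hY', hY, Matrix.mul_assoc, ← Matrix.mul_assoc (adj J J X), hinv,
          Matrix.one_mul, phi_lft, H.sB.self, zero_smul, add_zero, det_one]
      rw [hgk, det_kronecker, h0, zero_pow (by rw [Fintype.card_fin]; have := H.six; omega), zero_mul] at hsq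
      exact zero_ne_one hsq
    have hQ : IsUnit (adj JA J Y * lft α w).det := by
      rw [isUnit_iff_ne_zero]
      intro h0
      rw [h1, det_mul, h0, mul_zero] at hdet
      exact hdet rfl
    refine H.ct_ne hsc hX hnp hη0 hz0 ?_
    have h3 : phi α JB η * Y * (adj JA J Y * lft α w) = 0 := h2.symm
    have := congrArg (· * (adj JA J Y * lft α w)⁻¹) h3
    rwa [Matrix.mul_nonsing_inv_cancel_right _ _ hQ, Matrix.zero_mul, hY, ← Matrix.mul_assoc] at this

/-- A conjugate of a root element. -/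
theorem Over.conj_root_not_pure [Finite F] {U : Matrix Ix Ix F} (hU : InM M U) (hnp : ¬ IsPure U)
    {w η : Fin b → F} {c : F} (hw0 : w ≠ 0) (hη : bf JB w η = 0) (hN : nil JB w η c ≠ 0)
    (hfull : (∀ x : Fin b → F, x ≠ 0 → IsUnit (ct α JB U x w).det) ∨
      (∃ a0 : α → F, a0 ≠ 0 ∧ (U * lft α w) *ᵥ a0 = lft α w *ᵥ a0 ∧
        ∀ v : α → F, ∃ v₁ v₂ : α → F, v = v₁ + v₂ ∧ (U * lft α w) *ᵥ v₁ = lft α w *ᵥ v₁ ∧
          ∃ y, ct α JB U w w *ᵥ y = v₂)) :
    ¬ IsPure (1 + U * ((1 : Matrix α α F) ⊗ₖ nil JB w η c) * adj (JA ⊗ₖ JB) (JA ⊗ₖ JB) U) := by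
  have : NeZero b := ⟨by have := H.six; omega⟩
  rintro ⟨g, h, hgh⟩
  set J := JA ⊗ₖ JB with hJ
  set Us := adj J J U with hUs
  set N := nil JB w η c with hNdef
  set R := 1 + U * ((1 : Matrix α α F) ⊗ₖ N) * Us with hR
  have hU' : Us * U = 1 := H.unit hU
  have hη' := H.sB.zero_comm.1 hη
  have hNw : N *ᵥ w = 0 := by
    rw [hNdef]
    simp [nil, add_mulVec, smul_mulVec, rk_mulVec, H.sB.self, hη']
  have hN3 : N * N * N = 0 := by
    rw [hNdef]
    simp [nil, Matrix.add_mul, Matrix.mul_add, rk_mul, H.sB.self, hη, hη', Matrix.smul_mul, Matrix.mul_smul]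
  obtain ⟨p, hp⟩ := CharP.exists F
  have hpp : p.Prime := (CharP.char_is_prime_or_zero F p).resolve_right (fun h0 => by
    subst h0; exact CharP.char_ne_zero_of_finite F 0 rfl)
  have : Fact p.Prime := ⟨hpp⟩
  set E := p ^ 2 with hE
  have hE3 : 3 ≤ E := by
    have := hpp.two_le
    calc 3 ≤ 2 * 2 := by norm_num
      _ ≤ p * p := Nat.mul_le_mul this this
      _ = E := by rw [hE, sq]
  have hRE : R ^ E = 1 := by
    set A := U * ((1 : Matrix α α F) ⊗ₖ N) * Us with hA
    have hA3 : A * A * A = 0 := by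
      rw [hA]
      simp only [Matrix.mul_assoc]
      rw [← Matrix.mul_assoc Us U, hU', Matrix.one_mul, ← Matrix.mul_assoc Us U, hU', Matrix.one_mul,
        ← Matrix.mul_assoc ((1 : Matrix α α F) ⊗ₖ N), ← mul_kronecker_mul, ← Matrix.mul_assoc, ← Matrix.mul_assoc,
        Matrix.mul_assoc U, ← mul_kronecker_mul, hN3, Matrix.one_mul, Matrix.one_mul, kronecker_zero,
        Matrix.mul_zero, Matrix.zero_mul]
    have hAE : A ^ E = 0 := by
      obtain ⟨e, he⟩ := Nat.exists_eq_add_of_le hE3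
      rw [he, pow_add, pow_three, ← Matrix.mul_assoc, hA3, Matrix.zero_mul]
    rw [hR, hE, add_pow_char_pow_of_commute _ _ (Commute.one_left A), one_pow, ← hE, hAE, add_zero]
  have hkp : ∀ m : ℕ, (g ⊗ₖ h) ^ m = (g ^ m) ⊗ₖ (h ^ m) := by
    intro m
    induction m with
    | zero => simp [one_kronecker_one]
    | succ m ih => rw [pow_succ, ih, ← mul_kronecker_mul, ← pow_succ, ← pow_succ]
  rw [hgh, hkp] at hRE
  obtain ⟨μ, hμ0, hgE, hhE⟩ := kron_eq_one hRE
  obtain ⟨l, hl⟩ : ∃ l : F, l ^ E = μ := by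
    have := (iterateFrobeniusEquiv F p 2).surjective μ
    obtain ⟨l, hl⟩ := this
    exact ⟨l, by rwa [iterateFrobeniusEquiv_apply] at hl⟩
  have hl0 : l ≠ 0 := fun h0 => hμ0 (by rw [← hl, h0, zero_pow (by omega)])
  set g₀ := l⁻¹ • g with hg₀
  set h₀ := l • h with hh₀
  have hgh₀ : R = g₀ ⊗ₖ h₀ := by
    rw [hg₀, hh₀, smul_kronecker, kronecker_smul, smul_smul, inv_mul_cancel₀ hl0, one_smul, hgh]
  have hh₀E : h₀ ^ E = 1 := by
    rw [hh₀, smul_pow, hhE, smul_smul, hl, mul_inv_cancel₀ hμ0, one_smul]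
  have hRu : R * adj J J R = 1 := by
    have h1 := H.unit' (H.conj (H.root (α := α) hη c) hU)
    rwa [← hNdef, ← hR] at h1
  rw [hgh₀, hJ, adj_kron, ← mul_kronecker_mul] at hRu
  obtain ⟨ν, hν0, -, hhh⟩ := kron_eq_one hRu
  set h₀s := adj JB JB h₀ with hh₀s
  have hsE : h₀s ^ E = 1 := by rw [hh₀s, ← adj_pow H.sB.unit, hh₀E, adj_one H.sB.unit]
  have hh₀u : h₀ * h₀s = 1 := by
    suffices hν : ν⁻¹ = 1 by rw [hhh, hν, one_smul]
    obtain ⟨e, he⟩ : ∃ e, E = e + 1 := ⟨E - 1, by omega⟩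
    have e1 : h₀s = ν⁻¹ • h₀ ^ e := by
      calc h₀s = h₀ ^ E * h₀s := by rw [hh₀E, Matrix.one_mul]
        _ = h₀ ^ e * (h₀ * h₀s) := by rw [he, pow_succ, Matrix.mul_assoc]
        _ = _ := by rw [hhh, Matrix.mul_smul, Matrix.mul_one]
    have e2 := hsE
    rw [e1, smul_pow, ← pow_mul, mul_comm, pow_mul, hh₀E, one_pow] at e2
    have e3 := congrFun (congrFun e2 0) 0
    simp only [Matrix.smul_apply, Matrix.one_apply_eq, smul_eq_mul, mul_one] at e3
    have : (ν⁻¹ - 1) ^ E = 0 := by rw [sub_pow_char_pow (p := p), one_pow, ← hE, e3, sub_self]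
    exact sub_eq_zero.1 (eq_zero_of_pow_eq_zero this)
  have hh₀u' : h₀s * h₀ = 1 := mul_eq_one_comm.1 hh₀u
  -- the intertwining identity
  have hUR : U * ((1 : Matrix α α F) ⊗ₖ (1 + N)) = (g₀ ⊗ₖ h₀) * U := by
    rw [← hgh₀, hR, kronecker_add, one_kronecker_one, Matrix.mul_add, Matrix.add_mul, Matrix.one_mul, Matrix.mul_one,
      Matrix.mul_assoc _ Us U, hU', Matrix.mul_one]
  have hint : ∀ x y : Fin b → F, ct α JB U x ((1 + N) *ᵥ y) = g₀ * ct α JB U (h₀s *ᵥ x) y := by
    intro x y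
    have e := congrArg (fun Z => phi α JB x * Z * lft α y) hUR
    simp only [Matrix.mul_assoc, kron_lft, Matrix.mul_one] at e
    rw [← Matrix.mul_assoc (phi α JB x) (g₀ ⊗ₖ h₀), phi_kron H.sB, Matrix.mul_assoc g₀] at e
    rw [ct, ct]
    simp only [Matrix.mul_assoc]
    exact e
  have hkw : (1 + N) *ᵥ w = w := by rw [add_mulVec, one_mulVec, hNw, add_zero]
  have hg1 : g₀ = 1 := by
    rcases hfull with hfull | ⟨a0, ha0, hUa0, hdec⟩
    · obtain ⟨x, hx0, hfx⟩ : ∃ x : Fin b → F, x ≠ 0 ∧ h₀s *ᵥ x = x := by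
        have hnil : (h₀s - 1) ^ E = 0 := by
          rw [hE, sub_pow_char_pow_of_commute _ _ (Commute.one_right h₀s), one_pow, ← hE, hsE, sub_self]
        obtain ⟨x, hx0, hx⟩ := (Matrix.exists_mulVec_eq_zero_iff (M := h₀s - 1)).2 (by
          have := congrArg Matrix.det hnil
          rw [det_pow, det_zero] at this
          exact eq_zero_of_pow_eq_zero this)
        exact ⟨x, hx0, by rwa [sub_mulVec, one_mulVec, sub_eq_zero] at hx⟩
      have e := hint x w
      rw [hkw, hfx] at e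
      have hu := hfull x hx0
      have := congrArg (· * (ct α JB U x w)⁻¹) e
      simp only [Matrix.mul_nonsing_inv _ hu, Matrix.mul_nonsing_inv_cancel_right _ _ hu] at this
      exact this.symm
    have hUmap : ∀ v : α → F, (U * lft α w) *ᵥ v = lft α w *ᵥ v →
        (lft α (h₀ *ᵥ w) * g₀) *ᵥ v = lft α w *ᵥ v := by
      intro v hv
      have e := congrArg (fun Z => (Z * lft α w) *ᵥ v) hUR
      simp only [Matrix.mul_assoc, kron_lft, Matrix.mul_one, hkw] at e
      rw [hv, ← mulVec_mulVec, hv, mulVec_mulVec, kron_lft] at e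
      exact e.symm
    have hw1 : h₀ *ᵥ w = w := by
      obtain ⟨i, hi⟩ := Function.ne_iff.1 ha0
      have e : ∀ k, (h₀ *ᵥ w) k * (g₀ *ᵥ a0) i = w k * a0 i := by
        intro k
        have := congrFun (hUmap a0 hUa0) (i, k)
        rw [← mulVec_mulVec] at this
        simpa [mulVec, dotProduct, lft_apply] using this
      have hgi : (g₀ *ᵥ a0) i ≠ 0 := by
        intro h0
        obtain ⟨k, hk⟩ := Function.ne_iff.1 hw0
        have := e k
        rw [h0, mul_zero, eq_comm, mul_eq_zero] at this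
        exact hi (this.resolve_left hk)
      set r := a0 i / (g₀ *ᵥ a0) i
      have hrw : h₀ *ᵥ w = r • w := funext fun k => by
        rw [Pi.smul_apply, smul_eq_mul, div_mul_eq_mul_div, eq_div_iff hgi, e k, mul_comm]
      have hpow : ∀ m : ℕ, (h₀ ^ m) *ᵥ w = r ^ m • w := by
        intro m
        induction m with
        | zero => simp
        | succ m ih => rw [pow_succ, ← mulVec_mulVec, hrw, mulVec_smul, ih, smul_smul, pow_succ, mul_comm]
      have hrE := hpow E
      rw [hh₀E, one_mulVec] at hrE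
      obtain ⟨k, hk⟩ := Function.ne_iff.1 hw0
      have hrE1 : r ^ E = 1 := by
        have := congrFun hrE k
        rw [Pi.smul_apply, smul_eq_mul] at this
        exact (mul_right_cancel₀ hk (this.symm.trans (one_mul _).symm))
      have : (r - 1) ^ E = 0 := by rw [sub_pow_char_pow (p := p), one_pow, ← hE, hrE1, sub_self]
      rw [hrw, sub_eq_zero.1 (eq_zero_of_pow_eq_zero this), one_smul]
    have hw2 : h₀s *ᵥ w = w := by conv_lhs => rw [← hw1, mulVec_mulVec, hh₀u', one_mulVec]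
    refine Matrix.ext_of_mulVec_single fun i => ?_
    obtain ⟨v₁, v₂, hv, hv₁, y, hy⟩ := hdec (Pi.single i 1)
    have e1 : g₀ *ᵥ v₁ = v₁ := by
      obtain ⟨k, hk⟩ := Function.ne_iff.1 hw0
      funext j
      have := congrFun (hUmap v₁ hv₁) (j, k)
      rw [hw1, ← mulVec_mulVec] at this
      simp [mulVec, dotProduct, lft_apply] at this
      exact this.resolve_right hk
    have e2 : g₀ *ᵥ v₂ = v₂ := by
      have e := hint w w
      rw [hkw, hw2] at e
      rw [← hy, mulVec_mulVec, ← e]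
    rw [hv, mulVec_add, e1, e2, one_mulVec]
  by_cases h1 : h₀ = 1
  · -- the conjugate is trivial
    rw [hg1, h1, one_kronecker_one] at hgh₀
    rw [hR, add_eq_left] at hgh₀
    have e := congrArg (fun Z => Us * Z * U) hgh₀
    simp only [← Matrix.mul_assoc, hU', Matrix.one_mul, Matrix.mul_zero, Matrix.zero_mul] at e
    rw [Matrix.mul_assoc _ Us U, hU', Matrix.mul_one] at e
    obtain ⟨i⟩ := ‹Nonempty α›
    refine hN (Matrix.ext fun k l => ?_)
    simpa using congrFun (congrFun e (i, k)) (i, l)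
  obtain ⟨x, hx⟩ : ∃ x, h₀ *ᵥ x ≠ x := by
    by_contra hc
    push Not at hc
    exact h1 (Matrix.ext_of_mulVec_single fun k => by rw [hc, one_mulVec])
  have e := hint (h₀ *ᵥ x) w
  rw [hkw, hg1, Matrix.one_mul, mulVec_mulVec, hh₀u', one_mulVec] at e
  refine H.ct_ne hsc hU hnp (x₁ := h₀ *ᵥ x - x) (z := w) (sub_ne_zero.2 hx) hw0 ?_
  rw [ct_sub_left, e, sub_self]

end Cfsg.Agent.H99.TensorS
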