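import Cfsg.Agent.H99.TensorS.Conjugate
import Mathlib.FieldTheory.ChevalleyWarning

/-!
Rank descent: when only scalars occur in the middle parts every element is a pure tensor.
-/

set_option autoImplicit false
set_option linter.unusedSectionVars false

namespace Cfsg.Agent.H99.TensorS

open Matrix Tensor
open scoped Kronecker

variable {F : Type*} [Field F] {α : Type} [Fintype α] [DecidableEq α] {b : ℕ} {JA : Matrix α α F}
  {JB : Matrix (Fin b) (Fin b) F}

local notation "Ix" => α × Fin b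

/-- A matrix depending linearly on many parameters is singular somewhere. -/
theorem exists_det_zero [Finite F] {κ : Type} [Fintype κ] [DecidableEq κ] {ρ : ℕ} (hρ : 0 < ρ)
    (hκ : ρ < Fintype.card κ) (Mt : κ → Matrix (Fin ρ) (Fin ρ) F) :
    ∃ x : κ → F, x ≠ 0 ∧ (∑ i, x i • Mt i).det = 0 := by
  classical
  have : Fintype F := Fintype.ofFinite _
  obtain ⟨p, hp⟩ := CharP.exists F
  let P : Matrix (Fin ρ) (Fin ρ) (MvPolynomial κ F) :=
    ∑ i, (MvPolynomial.X i : MvPolynomial κ F) • (Mt i).map MvPolynomial.C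
  have e : ∀ x : κ → F, MvPolynomial.eval x P.det = (∑ i, x i • Mt i).det := by
    intro x
    rw [RingHom.map_det]
    congr 1
    ext a c
    simp [P, Matrix.sum_apply]
  have hd : P.det.totalDegree ≤ ρ := by
    rw [Matrix.det_apply']
    refine MvPolynomial.totalDegree_finsetSum_le fun σ _ => ?_
    refine le_trans (MvPolynomial.totalDegree_mul _ _) ?_
    rw [show ((Equiv.Perm.sign σ : ℤ) : MvPolynomial κ F) = MvPolynomial.C ((Equiv.Perm.sign σ : ℤ) : F) from
      (map_intCast _ _).symm, MvPolynomial.totalDegree_C, zero_add]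
    refine le_trans (MvPolynomial.totalDegree_finset_prod _ _) ?_
    refine le_trans (Finset.sum_le_sum fun i _ => ?_) (le_of_eq (by simp : (∑ _i : Fin ρ, (1 : ℕ)) = ρ))
    simp only [P, Matrix.sum_apply]
    refine MvPolynomial.totalDegree_finsetSum_le fun j _ => ?_
    rw [Matrix.smul_apply, smul_eq_mul, Matrix.map_apply]
    refine le_trans (MvPolynomial.totalDegree_mul _ _) ?_
    rw [MvPolynomial.totalDegree_C, MvPolynomial.totalDegree_X]
  have hdiv := char_dvd_card_solutions p (f := P.det) (by omega)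
  have h0 : MvPolynomial.eval (0 : κ → F) P.det = 0 := by
    rw [e]
    have : Nonempty (Fin ρ) := ⟨⟨0, hρ⟩⟩
    simp
  have hp2 : 2 ≤ p := ((CharP.char_is_prime_or_zero F p).resolve_right (fun h => by
    subst h; exact CharP.char_ne_zero_of_finite F 0 rfl)).two_le
  have hcard : 1 < Fintype.card { x : κ → F // MvPolynomial.eval x P.det = 0 } :=
    lt_of_lt_of_le hp2 (Nat.le_of_dvd (Fintype.card_pos_iff.2 ⟨⟨0, h0⟩⟩) hdiv)
  obtain ⟨⟨x, hx⟩, hne⟩ := Fintype.exists_ne_of_one_lt_card hcard ⟨0, h0⟩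
  exact ⟨x, fun h => hne (Subtype.ext h), by rw [← e]; exact hx⟩

theorem exists_factor (A : Matrix α α F) :
    ∃ (B : Matrix α (Fin A.rank) F) (C : Matrix (Fin A.rank) α F), A = B * C := by
  let bs : Module.Basis (Fin A.rank) F (LinearMap.range A.mulVecLin) := Module.finBasisOfFinrankEq F _ rfl
  refine ⟨Matrix.of fun i k => (bs k : α → F) i,
    Matrix.of fun k j => bs.repr ⟨A *ᵥ Pi.single j 1, ⟨_, rfl⟩⟩ k, ?_⟩
  ext i j
  have e := congrArg (fun v : LinearMap.range A.mulVecLin => (v : α → F) i)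
    (bs.sum_repr ⟨A *ᵥ Pi.single j 1, ⟨_, rfl⟩⟩)
  simp only [Submodule.coe_sum, Submodule.coe_smul, Finset.sum_apply, Pi.smul_apply, smul_eq_mul] at e
  have e' : (A *ᵥ Pi.single j 1) i = A i j := by rw [Matrix.mulVec_single_one, Matrix.col_apply]
  rw [← e', ← e, Matrix.mul_apply]
  exact Finset.sum_congr rfl fun k _ => mul_comm _ _

theorem rank_neg (A : Matrix α α F) : (-A).rank = A.rank := by
  have e : LinearMap.range (-A).mulVecLin = LinearMap.range A.mulVecLin := by
    ext x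
    simp only [LinearMap.mem_range, mulVecLin_apply]
    exact ⟨fun ⟨y, hy⟩ => ⟨-y, by rw [mulVec_neg, ← neg_mulVec, hy]⟩,
      fun ⟨y, hy⟩ => ⟨-y, by rw [mulVec_neg, neg_mulVec, neg_neg, hy]⟩⟩
  rw [Matrix.rank, Matrix.rank, e]

theorem rank_lt_of_det {n : Type} [Fintype n] [DecidableEq n] (A : Matrix n n F) (h : A.det = 0) :
    A.rank < Fintype.card n := by
  obtain ⟨v, hv0, hv⟩ := (Matrix.exists_mulVec_eq_zero_iff (M := A)).2 h
  have h1 := LinearMap.finrank_range_add_finrank_ker A.mulVecLin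
  have h2 : 0 < Module.finrank F (LinearMap.ker A.mulVecLin) :=
    Submodule.one_le_finrank_iff.2 ((Submodule.ne_bot_iff _).2 ⟨v, hv, hv0⟩)
  rw [Module.finrank_fintype_fun_eq_card] at h1
  rw [Matrix.rank]
  omega

variable {Q : (α × Fin b → F) → F} {M : Subgroup (GL (α × Fin b) F)} (H : Over JA JB Q M)
include H

theorem Over.ct_conj (X : Matrix Ix Ix F) (z x x' : Fin b → F) :
    ct α JB (1 + X * (lft α z * phi α JB z) * adj (JA ⊗ₖ JB) (JA ⊗ₖ JB) X) x x' =
      bf JB x x' • (1 : Matrix α α F) +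
        ct α JB X x z * ct α JB (adj (JA ⊗ₖ JB) (JA ⊗ₖ JB) X) z x' := by
  rw [ct_add, ct_one]
  congr 1
  simp only [ct, Matrix.mul_assoc]

theorem Over.ct_conj_adj (X : Matrix Ix Ix F) (z x x' : Fin b → F) :
    ct α JB (adj (JA ⊗ₖ JB) (JA ⊗ₖ JB) (1 + X * (lft α z * phi α JB z) * adj (JA ⊗ₖ JB) (JA ⊗ₖ JB) X)) x x' =
      bf JB x x' • (1 : Matrix α α F) -
        ct α JB X x z * ct α JB (adj (JA ⊗ₖ JB) (JA ⊗ₖ JB) X) z x' := by
  have e : adj (JA ⊗ₖ JB) (JA ⊗ₖ JB) (lft α z * phi α JB z) = -(lft α z * phi α JB z) := by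
    rw [adj_mul H.sA.unit, H.adj_phi, adjA_lft H.sA, Matrix.neg_mul]
  rw [adj_add, adj_one H.unitJ, adj_mul H.unitJ, adj_mul H.unitJ, H.adjJ_adjJ, e, ct_add, ct_one, Matrix.neg_mul,
    Matrix.mul_neg, sub_eq_add_neg]
  congr 1
  simp only [ct, Matrix.mul_assoc, Matrix.mul_neg, Matrix.neg_mul]

/-- All elements are pure tensors when the middle parts are scalar. -/
theorem Over.all_pure [Finite F] [Nonempty α]
    (hsc : ∀ C : Matrix α α F, InK JA JB M C → ∃ c : F, C = c • (1 : Matrix α α F))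
    (hab : Fintype.card α + 2 ≤ b) (y : GL Ix F) (hy : y ∈ M) : IsPure (y : Matrix Ix Ix F) := by
  classical
  by_contra hnp0
  set J := JA ⊗ₖ JB with hJ
  let P : ℕ → Prop := fun r => ∃ (X : Matrix Ix Ix F) (u v : Fin b → F), InM M X ∧ ¬ IsPure X ∧
    u ≠ 0 ∧ v ≠ 0 ∧ (ct α JB X u v).rank = r
  let w₁ : Fin b → F := Pi.single ⟨0, by omega⟩ 1
  have hw₁0 : w₁ ≠ 0 := fun h => by simpa [w₁] using congrFun h ⟨0, by omega⟩
  have hex : ∃ r, P r := ⟨_, _, w₁, w₁, ⟨y, hy, rfl⟩, hnp0, hw₁0, hw₁0, rfl⟩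
  obtain ⟨X, w, z, hX, hnp, hw0, hz0, hrk⟩ := Nat.find_spec hex
  set ρ := Nat.find hex with hρdef
  have hmin : ∀ (Y : Matrix Ix Ix F) (u v : Fin b → F), InM M Y → ¬ IsPure Y → u ≠ 0 → v ≠ 0 →
      ρ ≤ (ct α JB Y u v).rank := fun Y u v h1 h2 h3 h4 =>
    Nat.find_min' hex ⟨Y, u, v, h1, h2, h3, h4, rfl⟩
  set A := ct α JB X w z with hA
  set Ac := ct α JB (adj J J X) z w with hAc
  have hAA : Ac = -adj JA JA A := by rw [hA, H.adj_ct, neg_neg]
  have hA0 : A ≠ 0 := H.ct_ne hsc hX hnp hw0 hz0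
  have hρ0 : 0 < ρ := by
    rcases Nat.eq_zero_or_pos ρ with h0 | h0
    · exfalso
      refine hA0 (Matrix.ext_of_mulVec_single fun j => ?_)
      have hb : LinearMap.range A.mulVecLin = ⊥ := Submodule.finrank_eq_zero.1 (hrk.trans h0)
      rw [Matrix.zero_mulVec]
      exact (Submodule.mem_bot F).1 (hb ▸ ⟨Pi.single j 1, rfl⟩)
    · exact h0
  have hρa : ρ ≤ Fintype.card α := hrk ▸ Matrix.rank_le_card_width _
  have hroot : ∀ v : Fin b → F, InM M (1 + lft α v * phi α JB v) := fun v => by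
    have := H.right (α := α) v 1
    rwa [one_smul, kronecker_add, one_kronecker_one, ← lft_phi] at this
  -- the first conjugates
  set U := 1 + X * (lft α z * phi α JB z) * adj J J X with hUdef
  have hU : InM M U := H.conj (hroot z) hX
  have hUnp : ¬ IsPure U := H.conj_trans_not_pure hsc (by omega) hX hnp hz0
  have hUww : ct α JB U w w = A * Ac := by
    rw [hUdef, H.ct_conj, H.sB.self, zero_smul, zero_add]
  have hr1 : ρ ≤ (A * Ac).rank := by
    have := hmin U w w hU hUnp hw0 hw0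
    rwa [hUww] at this
  have hXnp : ¬ IsPure (adj J J X) := fun h => hnp (H.isPure_adj h)
  have hr2 : ρ ≤ (Ac * A).rank := by
    have := hmin _ z z (H.conj (hroot w) (H.inv hX)) (H.conj_trans_not_pure hsc (by omega) (H.inv hX) hXnp hw0)
      hz0 hz0
    rwa [H.ct_conj, H.sB.self, zero_smul, zero_add, H.adjJ_adjJ] at this
  have hrkA : A.rank = ρ := hrk
  have hrkA' : Ac.rank = ρ := by rw [hAA, rank_neg, adj_rank H.sA.unit, hrkA]
  have hrg1 : LinearMap.range (A * Ac).mulVecLin = LinearMap.range A.mulVecLin := by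
    refine Submodule.eq_of_le_of_finrank_le ?_ (hrkA.le.trans hr1)
    rintro _ ⟨x, rfl⟩
    exact ⟨Ac *ᵥ x, by simp [Matrix.mulVec_mulVec]⟩
  have hrg2 : LinearMap.range (Ac * A).mulVecLin = LinearMap.range Ac.mulVecLin := by
    refine Submodule.eq_of_le_of_finrank_le ?_ (hrkA'.le.trans hr2)
    rintro _ ⟨x, rfl⟩
    exact ⟨A *ᵥ x, by simp [Matrix.mulVec_mulVec]⟩
  -- parameters
  obtain ⟨w', hww'⟩ := H.sB.exists_one hw0
  obtain ⟨W, hWdim, hWperp⟩ := finrank_perp (J := JB) ![w, w']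
  let bs := Module.finBasis F W
  let κ := Fin (Module.finrank F W) ⊕ Unit
  let vv : κ → Fin b → F := Sum.elim (fun p => ((bs p : W) : Fin b → F)) (fun _ => 0)
  let γ : κ → F := Sum.elim (fun _ => 0) (fun _ => 1)
  let Z : (Fin b → F) → F → Matrix α α F := fun η c =>
    ct α JB (adj J J X) z η * A + Ac * ct α JB X η z + c • (Ac * A)
  obtain ⟨B, C, hBC⟩ := exists_factor Ac
  let Mt : κ → Matrix (Fin Ac.rank) (Fin Ac.rank) F := fun i => Bᵀ * JA * Z (vv i) (γ i) * B
  have hκ : Ac.rank < Fintype.card κ := by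
    simp only [κ, Fintype.card_sum, Fintype.card_fin, Fintype.card_unit, hrkA'] at hWdim ⊢
    omega
  obtain ⟨x, hx0, hdet⟩ := exists_det_zero (by rw [hrkA']; exact hρ0) hκ Mt
  set η := ∑ i, x i • vv i with hη
  set c := ∑ i, x i * γ i with hcdef
  have hMsum : ∑ i, x i • Mt i = Bᵀ * JA * Z η c * B := by
    have e : ∑ i, x i • Z (vv i) (γ i) = Z η c := by
      have l1 : ct α JB (adj J J X) z η = ∑ i, x i • ct α JB (adj J J X) z (vv i) := by
        let f : (Fin b → F) →ₗ[F] Matrix α α F :=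
          { toFun := fun u => ct α JB (adj J J X) z u
            map_add' := fun u u' => ct_add_right _ _ _ _
            map_smul' := fun a u => ct_smul_right _ _ _ _ }
        change f η = _
        rw [hη, map_sum]
        exact Finset.sum_congr rfl fun i _ => f.map_smul _ _
      have l2 : ct α JB X η z = ∑ i, x i • ct α JB X (vv i) z := by
        let f : (Fin b → F) →ₗ[F] Matrix α α F :=
          { toFun := fun u => ct α JB X u z
            map_add' := fun u u' => ct_add_left _ _ _ _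
            map_smul' := fun a u => ct_smul_left _ _ _ _ }
        change f η = _
        rw [hη, map_sum]
        exact Finset.sum_congr rfl fun i _ => f.map_smul _ _
      simp only [Z, l1, l2, hcdef, Finset.sum_smul, ← Finset.sum_add_distrib, Matrix.sum_mul, Matrix.mul_sum,
        Matrix.smul_mul, Matrix.mul_smul]
      exact Finset.sum_congr rfl fun i _ => by module
    simp only [Mt, ← e, Matrix.mul_sum, Matrix.sum_mul, Matrix.mul_smul, Matrix.smul_mul]
  rw [hMsum] at hdet
  have hηW : η ∈ W := by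
    refine Submodule.sum_mem _ fun i _ => Submodule.smul_mem _ _ ?_
    rcases i with p | u
    · exact (bs p).2
    · exact W.zero_mem
  have hwη : bf JB w η = 0 := hWperp η hηW 0
  have hw'η : bf JB w' η = 0 := hWperp η hηW 1
  have hN : nil JB w η c ≠ 0 := by
    intro h0
    have h1 := congrArg (· *ᵥ w') h0
    simp only [nil, add_mulVec, smul_mulVec, rk_mulVec, hww', H.sB.zero_comm.1 hw'η, zero_mulVec, zero_smul,
      add_zero, one_smul] at h1
    have hc0 : c = 0 := by
      have := congrArg (bf JB w') h1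
      rwa [bf_add_right, bf_smul_right, hw'η, bf_zero_right, zero_add, H.sB.swap w w', hww', mul_neg_one,
        neg_eq_zero] at this
    rw [hc0, zero_smul, add_zero] at h1
    have hl : ∀ p : Fin (Module.finrank F W), x (Sum.inl p) = 0 := by
      have e : η = ((∑ p, x (Sum.inl p) • bs p : W) : Fin b → F) := by
        simp only [hη, κ, vv, Fintype.sum_sum_type, Sum.elim_inl, Sum.elim_inr, smul_zero, Finset.sum_const_zero,
          add_zero, Submodule.coe_sum, SetLike.val_smul]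
      rw [h1] at e
      exact Fintype.linearIndependent_iff.1 bs.linearIndependent _ (Subtype.ext e.symm)
    refine hx0 (funext fun i => ?_)
    rcases i with p | u
    · exact hl p
    · simpa [hcdef, κ, γ, Fintype.sum_sum_type] using hc0
  -- the second conjugate
  set N := nil JB w η c with hNdef
  set R := 1 + U * ((1 : Matrix α α F) ⊗ₖ N) * adj J J U with hR
  have hRM : InM M R := H.conj (H.root hwη c) hU
  have hfull : (∀ x : Fin b → F, x ≠ 0 → IsUnit (ct α JB U x w).det) ∨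
      (∃ a0 : α → F, a0 ≠ 0 ∧ (U * lft α w) *ᵥ a0 = lft α w *ᵥ a0 ∧
        ∀ v : α → F, ∃ v₁ v₂ : α → F, v = v₁ + v₂ ∧ (U * lft α w) *ᵥ v₁ = lft α w *ᵥ v₁ ∧
          ∃ y, ct α JB U w w *ᵥ y = v₂) := by
    have hfixed : ∀ v : α → F, Ac *ᵥ v = 0 → (U * lft α w) *ᵥ v = lft α w *ᵥ v := by
      intro v hv
      have e : X * (lft α z * phi α JB z) * adj J J X * lft α w = X * lft α z * Ac := by
        rw [hAc, ct]
        simp only [Matrix.mul_assoc]
      rw [hUdef, Matrix.add_mul, Matrix.one_mul, e, add_mulVec, ← mulVec_mulVec, hv, mulVec_zero, add_zero]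
    rcases eq_or_ne Ac.det 0 with hdetA | hdetA
    · obtain ⟨a0, ha0, hAa⟩ := (Matrix.exists_mulVec_eq_zero_iff (M := Ac)).2 hdetA
      refine Or.inr ⟨a0, ha0, hfixed a0 hAa, fun v => ?_⟩
      obtain ⟨y', hy'⟩ : Ac *ᵥ v ∈ LinearMap.range (Ac * A).mulVecLin := by rw [hrg2]; exact ⟨v, rfl⟩
      obtain ⟨y₂, hy₂⟩ : A *ᵥ y' ∈ LinearMap.range (A * Ac).mulVecLin := by rw [hrg1]; exact ⟨y', rfl⟩
      refine ⟨v - A *ᵥ y', A *ᵥ y', (sub_add_cancel _ _).symm, hfixed _ ?_, y₂, ?_⟩
      · rw [mulVec_sub, mulVec_mulVec]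
        exact sub_eq_zero.2 hy'.symm
      · rw [hUww]
        exact hy₂
    · refine Or.inl fun x hx0' => ?_
      rw [isUnit_iff_ne_zero]
      intro h0
      have h1 := rank_lt_of_det _ h0
      have h2 := hmin U x w hU hUnp hx0' hw0
      have h3 : ρ = Fintype.card α := by
        rw [← hrkA']
        exact Matrix.rank_of_isUnit _ ((Matrix.isUnit_iff_isUnit_det _).2 (Ne.isUnit hdetA))
      omega
  have hRnp : ¬ IsPure R := H.conj_root_not_pure hsc hU hUnp hw0 hwη hN hfull
  have hRww : ct α JB R w w = -(A * Z η c * Ac) := by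
    have eU1 : ct α JB U w η = A * ct α JB (adj J J X) z η := by
      rw [hUdef, H.ct_conj, hwη, zero_smul, zero_add]
    have eU2 : ct α JB (adj J J U) η w = -(ct α JB X η z * Ac) := by
      rw [hUdef, H.ct_conj_adj, H.sB.zero_comm.1 hwη, zero_smul, zero_sub]
    have eU3 : ct α JB (adj J J U) w w = -(A * Ac) := by
      rw [hUdef, H.ct_conj_adj, H.sB.self, zero_smul, zero_sub]
    have e2 : ct α JB (U * ((1 : Matrix α α F) ⊗ₖ N) * adj J J U) w w =
        ct α JB U w η * ct α JB (adj J J U) w w + ct α JB U w w * ct α JB (adj J J U) η w +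
          c • (ct α JB U w w * ct α JB (adj J J U) w w) := by
      rw [hNdef, nil, kronecker_add, kronecker_add, kronecker_smul, ← lft_phi, ← lft_phi, ← lft_phi]
      simp only [ct, Matrix.mul_add, Matrix.add_mul, Matrix.mul_smul, Matrix.smul_mul, Matrix.mul_assoc]
    rw [hR, ct_add, ct_one, H.sB.self, zero_smul, zero_add, e2, eU1, eU2, eU3, hUww]
    simp only [Z, Matrix.mul_neg, Matrix.mul_add, Matrix.add_mul, Matrix.mul_smul, Matrix.smul_mul, smul_neg,
      Matrix.mul_assoc]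
    abel
  have hlt : (ct α JB R w w).rank < ρ := by
    have hA' : A = -(JA⁻¹ * Cᵀ * (Bᵀ * JA)) := by
      have := congrArg (adj JA JA) hAA
      rw [adj_neg, adj_self_adj H.sA] at this
      rw [← neg_eq_iff_eq_neg, ← this]
      refine (congrArg (adj JA JA) hBC).trans ?_
      rw [adj, transpose_mul]
      simp only [Matrix.mul_assoc]
    have e : -(A * Z η c * Ac) = JA⁻¹ * Cᵀ * (Bᵀ * JA * Z η c * B) * C := by
      rw [← Matrix.neg_mul, ← Matrix.neg_mul]
      refine (congrArg₂ (fun P Q => -P * Z η c * Q) hA' hBC).trans ?_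
      simp only [neg_neg, Matrix.mul_assoc]
    rw [hRww, e]
    calc (JA⁻¹ * Cᵀ * (Bᵀ * JA * Z η c * B) * C).rank
        ≤ (JA⁻¹ * Cᵀ * (Bᵀ * JA * Z η c * B)).rank := Matrix.rank_mul_le_left _ _
      _ ≤ (Bᵀ * JA * Z η c * B).rank := Matrix.rank_mul_le_right _ _
      _ < Fintype.card (Fin Ac.rank) := rank_lt_of_det _ hdet
      _ = ρ := by rw [Fintype.card_fin, hrkA']
  exact absurd (hmin R w w hRM hRnp hw0 hw0) (not_le.2 hlt)

end Cfsg.Agent.H99.TensorS
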