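import Cfsg.Agent.H99.TensorS.Generate
import Cfsg.Agent.H99.TensorS.Descent
import Cfsg.Agent.H99.Tensor.Maximal
import Cfsg.Agent.H98.QuadFun
import Cfsg.Agent.H98.OrthSubMain
import Cfsg.Agent.H97.SympSemisimple

/-!
The stabiliser of a decomposition as a tensor product of two symplectic spaces is maximal in `Ω`.
-/

set_option autoImplicit false
set_option linter.unusedSectionVars false

namespace Cfsg.Agent.H99.TensorS

open Matrix Tensor Cfsg.Geo
open scoped Kronecker

variable {F : Type*} [Field F]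

section One

variable {m : ℕ} {J : Matrix (Fin m) (Fin m) F}

theorem SympMat.even (hJ : SympMat J) : Even m := by
  have hA : (Matrix.toBilin' J).IsAlt := fun x => by
    rw [Matrix.toBilin'_apply', dotProduct_mulVec]
    exact hJ.self x
  have h := H97.NondegOn.even_finrank (B := Matrix.toBilin' J) hA (W := ⊤) fun v _ hv => hJ.eq_zero fun w => by
    have := hv w Submodule.mem_top
    rwa [Matrix.toBilin'_apply', dotProduct_mulVec] at this
  simpa using h

/-- The identity is a sum of alternating rank two maps. -/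
theorem SympMat.one_eq_sum (hJ : SympMat J) :
    (1 : Matrix (Fin m) (Fin m) F) =
      ∑ i, ∑ j, if i < j then wedge J (Pi.single i 1) (J⁻¹ i j • Pi.single j 1) else 0 := by
  classical
  set C := J⁻¹ with hC
  have hskew : ∀ i j, C j i = -C i j := by
    have h : (J⁻¹)ᵀ = -J⁻¹ := by
      refine left_inv_eq_left_inv (A := Jᵀ) ?_ ?_
      · rw [← transpose_mul, mul_nonsing_inv J hJ.unit, transpose_one]
      · rw [hJ.skew, Matrix.neg_mul, Matrix.mul_neg, neg_neg, nonsing_inv_mul J hJ.unit]
    intro i j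
    exact congrFun (congrFun h i) j
  have hdiag : ∀ i, C i i = 0 := by
    intro i
    have := hJ.self (Pi.single i 1 ᵥ* C)
    rwa [bf, vecMul_vecMul, hC, nonsing_inv_mul J hJ.unit, vecMul_one, single_one_dotProduct,
      single_one_vecMul, ← hC] at this
  set f : Fin m → Fin m → Matrix (Fin m) (Fin m) F := fun i j => C i j • rk J (Pi.single i 1) (Pi.single j 1)
    with hf
  have e1 : (1 : Matrix (Fin m) (Fin m) F) = ∑ i, ∑ j, f i j := by
    ext k l
    rw [← nonsing_inv_mul J hJ.unit, ← hC, Matrix.mul_apply]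
    simp only [hf, Matrix.sum_apply, rk, Matrix.smul_apply, vecMulVec_apply, single_one_vecMul, smul_eq_mul,
      Pi.single_apply, ite_mul, one_mul, zero_mul, mul_ite, mul_zero, Finset.sum_ite_irrel, Finset.sum_const_zero,
      Finset.sum_ite_eq, Finset.mem_univ, if_true]
    rfl
  have e2 : ∀ i j, f i j = (if i < j then f i j else 0) + (if j < i then f i j else 0) := by
    intro i j
    rcases lt_trichotomy i j with h | h | h
    · simp [h, h.asymm]
    · subst h; simp [hf, hdiag]
    · simp [h, h.asymm]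
  rw [e1]
  rw [Finset.sum_congr rfl fun i _ => Finset.sum_congr rfl fun j _ => e2 i j]
  simp only [Finset.sum_add_distrib]
  conv_lhs => arg 2; rw [Finset.sum_comm]
  rw [← Finset.sum_add_distrib]
  refine Finset.sum_congr rfl fun i _ => ?_
  rw [← Finset.sum_add_distrib]
  refine Finset.sum_congr rfl fun j _ => ?_
  split_ifs with h
  · simp only [hf, hskew i j]
    rw [wedge_smul_right, wedge, neg_smul, smul_sub, sub_eq_add_neg]
  · exact add_zero _

/-- A Gram matrix of a symplectic form. -/
theorem sympMat_gram {f : (Fin m → F) → (Fin m → F) → F} (hf : IsSymplecticForm f) {c : F} (hc : c ≠ 0) :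
    SympMat (c • gramMatrix f) := by
  refine ⟨?_, fun i => ?_, ?_⟩
  · ext i j
    simp only [transpose_apply, Matrix.smul_apply, Matrix.neg_apply, gramMatrix, smul_eq_mul]
    rw [hf.skew, mul_neg]
  · simp only [Matrix.smul_apply, gramMatrix, smul_eq_mul, hf.alternating, mul_zero]
  · rw [det_smul]
    refine (IsUnit.mk0 _ (pow_ne_zero _ hc)).mul (isUnit_iff_ne_zero.2 fun h0 => ?_)
    obtain ⟨u, hu0, hu⟩ := (Matrix.exists_vecMul_eq_zero_iff (M := gramMatrix f)).2 h0
    obtain ⟨y, hy⟩ := (hf.nondegenerate u hu0).2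
    let φ : (Fin m → F) →ₗ[F] F :=
      { toFun := fun v => f u v
        map_add' := fun v w => hf.bilinear.add_right u v w
        map_smul' := fun a v => hf.bilinear.smul_right a u v }
    let ψ : Fin m → (Fin m → F) →ₗ[F] F := fun j =>
      { toFun := fun v => f v (Pi.single j 1)
        map_add' := fun v w => hf.bilinear.add_left v w _
        map_smul' := fun a v => hf.bilinear.smul_left a v _ }
    refine hy ?_
    change φ y = 0
    rw [pi_eq_sum_univ' y, map_sum]
    refine Finset.sum_eq_zero fun j _ => ?_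
    have e : φ (Pi.single j 1) = 0 := by
      change ψ j u = 0
      rw [pi_eq_sum_univ' u, map_sum]
      refine Eq.trans (Finset.sum_congr rfl fun i _ => ?_) (congrFun hu j)
      rw [map_smul, smul_eq_mul]
      rfl
    rw [map_smul, e, smul_zero]

end One

section Pairs

open H5 QuadraticMap

variable [Finite F] {a b : ℕ} {JA : Matrix (Fin a) (Fin a) F} {JB : Matrix (Fin b) (Fin b) F}
  (Qc : QuadraticForm F (Fin a × Fin b → F))

/-- The matrix of a long root element. -/
theorem inM_root (hQ : (polarBilin Qc).Nondegenerate) (hn : 5 ≤ a * b)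
    (hpol : ∀ u v, polar Qc u v = bf (JA ⊗ₖ JB) u v) {u w : Fin a × Fin b → F} (hu : Qc u = 0) (hw : Qc w = 0)
    (huw : bf (JA ⊗ₖ JB) u w = 0) :
    InM ((commutator (orth Qc)).map (toGLHom Qc (f := ⇑Qc) rfl)) (1 + wedge (JA ⊗ₖ JB) w u) := by
  haveI : Finite (Fin a × Fin b → F) := Pi.finite
  refine ⟨toGLHom Qc rfl (eich Qc u w), ⟨_, eich_mem_commutator hQ (by simpa using hn) u w, rfl⟩,
    Matrix.ext_of_mulVec_single fun i => ?_⟩
  rw [toGLHom_mulVec, eich_apply hu (by rw [hpol, huw]), hpol, hpol, hw, zero_mul, zero_smul, sub_zero, add_mulVec,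
    one_mulVec, wedge, sub_mulVec, rk_mulVec, rk_mulVec, add_sub_assoc]

/-- In standard coordinates. -/
theorem kronecker_maximal (hQ : (polarBilin Qc).Nondegenerate) (hA : SympMat JA) (hB : SympMat JB) (hab : a < b)
    (hn : 13 ≤ a * b) (hpol : ∀ u v, polar Qc u v = bf (JA ⊗ₖ JB) u v)
    (hpure : ∀ (x : Fin a → F) (w : Fin b → F), Qc (pv x w) = 0)
    (hex : (∃ r : F, r ≠ 0 ∧ r ≠ 1) ∨ a ≠ 2) :
    IsMaximalIn (omegaGL ⇑Qc) (kroneckerSubgroup a b F ⊓ omegaGL ⇑Qc) := by
  classical
  have ha0 : 0 < a := Nat.pos_of_ne_zero fun h => by simp [h] at hn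
  obtain ⟨a', ha'⟩ := hA.even
  obtain ⟨b', hb'⟩ := hB.even
  have hab2 : a + 2 ≤ b := by omega
  have hb6 : 6 ≤ b := by
    by_contra h
    have : a * b ≤ 2 * 4 := Nat.mul_le_mul (by omega) (by omega)
    omega
  have : Nonempty (Fin a) := ⟨⟨0, ha0⟩⟩
  set J := JA ⊗ₖ JB with hJ
  set hom := toGLHom Qc (f := ⇑Qc) rfl with hhom
  set Om := (commutator (orth Qc)).map hom with hOm
  have hinj : Function.Injective hom := fun g g' h => orth_ext fun x => by
    rw [← toGLHom_mulVec Qc rfl, ← toGLHom_mulVec Qc rfl, ← hhom, h]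
  have hroot : ∀ (x y : Fin a → F) (z w : Fin b → F), bf JA x y * bf JB z w = 0 →
      InM Om (1 + wedge J (pv y w) (pv x z)) := fun x y z w h =>
    inM_root Qc hQ (by omega) hpol (hpure _ _) (hpure _ _) (by rw [bf_pv, h])
  have hL : ∀ (v : Fin a → F) (d : F), InM Om ((1 + d • rk JA v v) ⊗ₖ (1 : Matrix (Fin b) (Fin b) F)) := by
    intro v d
    let P : Matrix (Fin b) (Fin b) F → Prop := fun N => InM Om (1 + (d • rk JA v v) ⊗ₖ N)
    have hP0 : P 0 := by change InM _ _; rw [kronecker_zero, add_zero]; exact InM.one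
    have hPadd : ∀ N N', P N → P N' → P (N + N') := by
      intro N N' h h'
      have := h.mul h'
      rwa [Matrix.add_mul, Matrix.one_mul, Matrix.mul_add, Matrix.mul_one, ← mul_kronecker_mul, Matrix.smul_mul,
        Matrix.mul_smul, rk_mul, hA.self, zero_smul, smul_zero, smul_zero, zero_kronecker, add_zero, add_assoc,
        add_comm ((d • rk JA v v) ⊗ₖ N'), ← kronecker_add] at this
    have hwedge : ∀ e f : Fin b → F, P (wedge JB e f) := by
      intro e f
      change InM _ _
      have := hroot (d • v) v f e (by rw [bf_smul_left, hA.self, mul_zero, zero_mul])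
      have e2 : wedge J (pv v e) (pv (d • v) f) = (d • rk JA v v) ⊗ₖ wedge JB e f := by
        rw [wedge, wedge, hJ, ← rk_kron, ← rk_kron, rk_smul_left, rk_smul_right]
        ext p q
        simp [kroneckerMap_apply]
        ring
      rwa [e2] at this
    have h1 : P (1 : Matrix (Fin b) (Fin b) F) := by
      rw [hB.one_eq_sum]
      refine Finset.sum_induction _ P hPadd hP0 fun i _ => Finset.sum_induction _ P hPadd hP0 fun j _ => ?_
      split_ifs
      · exact hwedge _ _
      · exact hP0
    rw [add_kronecker, one_kronecker_one]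
    exact h1
  have hR : ∀ (w : Fin b → F) (d : F), InM Om ((1 : Matrix (Fin a) (Fin a) F) ⊗ₖ (1 + d • rk JB w w)) := by
    intro w d
    let P : Matrix (Fin a) (Fin a) F → Prop := fun G => InM Om (1 + G ⊗ₖ (d • rk JB w w))
    have hP0 : P 0 := by change InM _ _; rw [zero_kronecker, add_zero]; exact InM.one
    have hPadd : ∀ N N', P N → P N' → P (N + N') := by
      intro N N' h h'
      have := h.mul h'
      rwa [Matrix.add_mul, Matrix.one_mul, Matrix.mul_add, Matrix.mul_one, ← mul_kronecker_mul, Matrix.smul_mul,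
        Matrix.mul_smul, rk_mul, hB.self, zero_smul, smul_zero, smul_zero, kronecker_zero, add_zero, add_assoc,
        add_comm (N' ⊗ₖ (d • rk JB w w)), ← add_kronecker] at this
    have hwedge : ∀ e f : Fin a → F, P (wedge JA e f) := by
      intro e f
      change InM _ _
      have := hroot f e (d • w) w (by rw [bf_smul_left, hB.self, mul_zero, mul_zero])
      have e2 : wedge J (pv e w) (pv f (d • w)) = wedge JA e f ⊗ₖ (d • rk JB w w) := by
        rw [wedge, wedge, hJ, ← rk_kron, ← rk_kron, rk_smul_left, rk_smul_right]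
        ext p q
        simp [kroneckerMap_apply]
        ring
      rwa [e2] at this
    have h1 : P (1 : Matrix (Fin a) (Fin a) F) := by
      rw [hA.one_eq_sum]
      refine Finset.sum_induction _ P hPadd hP0 fun i _ => Finset.sum_induction _ P hPadd hP0 fun j _ => ?_
      split_ifs
      · exact hwedge _ _
      · exact hP0
    rw [kronecker_add, one_kronecker_one]
    exact h1
  refine isMaximalIn_omegaGL Qc rfl _ ?_ ?_
  · let z : Fin b → F := Pi.single ⟨0, by omega⟩ 1
    let x : Fin a → F := Pi.single ⟨0, ha0⟩ 1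
    have hz0 : z ≠ 0 := fun h => by simpa [z] using congrFun h ⟨0, by omega⟩
    have hx0 : x ≠ 0 := fun h => by simpa [x] using congrFun h ⟨0, ha0⟩
    obtain ⟨η, hη, hη'⟩ := hB.exists_indep (by simp; omega) z
    obtain ⟨y, ⟨g, hg, rfl⟩, hy⟩ := hroot x x z η (by rw [hA.self, zero_mul])
    refine ⟨g, hg, ?_⟩
    rintro ⟨A, B, hAB⟩
    rw [← hhom, hy, wedge, hJ, ← rk_kron, ← rk_kron] at hAB
    obtain ⟨u, hu0, hup⟩ := exists_perp (J := JB) ![z, η] (by simp; omega)
    have h1 : bf JB z u = 0 := hup 0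
    have h2 : bf JB η u = 0 := hup 1
    obtain ⟨e₀, he₀⟩ := hB.exists_one hu0
    have k1 := congrArg (fun Z => phi (Fin a) JB (-e₀) * (Z * lft (Fin a) u)) hAB
    simp only [Matrix.add_mul, Matrix.sub_mul, Matrix.one_mul, kron_lft, rk_mulVec, h1, h2, zero_smul, lft_zero,
      Matrix.zero_mul, sub_zero, add_zero, ← Matrix.mul_assoc, phi_lft] at k1
    rw [← neg_one_smul F e₀, bf_smul_left, hB.swap u e₀, he₀, show (-1 : F) * -1 = 1 by norm_num, one_smul] at k1
    set s := bf JB ((-1 : F) • e₀) ((B : Matrix (Fin b) (Fin b) F) *ᵥ u) with hs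
    rw [Matrix.smul_mul, Matrix.one_mul] at k1
    obtain ⟨u', hu'z, hu'z', hu'η⟩ := hB.sep₁ hη'
    obtain ⟨e, he⟩ := hB.exists_one hz0
    have hs0 : s ≠ 0 := fun h0 => by
      rw [h0, zero_smul] at k1
      exact one_ne_zero k1
    have hA' : (A : Matrix (Fin a) (Fin a) F) = s⁻¹ • 1 := by
      rw [k1, smul_smul, inv_mul_cancel₀ hs0, one_smul]
    have k2 := congrArg (fun Z => phi (Fin a) JB e * (Z * lft (Fin a) u')) hAB
    simp only [Matrix.add_mul, Matrix.sub_mul, Matrix.one_mul, kron_lft, rk_mulVec, Matrix.mul_add, Matrix.mul_sub,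
      ← Matrix.mul_assoc, phi_lft, bf_smul_right, hA', Matrix.smul_mul, Matrix.mul_smul, Matrix.mul_one,
      Matrix.one_mul, hu'z, hB.swap u' η, hu'η, zero_mul, zero_smul, smul_smul] at k2
    set r := s⁻¹ * bf JB e ((B : Matrix (Fin b) (Fin b) F) *ᵥ u') - bf JB e u' with hr
    have hx' : rk JA x x = (-r) • (1 : Matrix (Fin a) (Fin a) F) := by
      have hee : bf JB e z = -1 := by rw [hB.swap z e, he]
      simp only [hee, bf_zero_right, zero_smul, neg_mul, one_mul, neg_neg, one_smul, zero_sub] at k2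
      rw [hr, neg_sub, sub_smul, ← k2]
      abel
    have hsq : rk JA x x * rk JA x x = 0 := by rw [rk_mul, hA.self, zero_smul]
    have hx : rk JA x x = 0 := by
      rw [hx', Matrix.smul_mul, Matrix.one_mul, smul_smul, smul_eq_zero] at hsq
      rcases hsq with h | h
      · rw [hx', mul_self_eq_zero.1 h, zero_smul]
      · exact absurd h one_ne_zero
    obtain ⟨x', hx'⟩ := hA.exists_one hx0
    have := congrArg (· *ᵥ x') hx
    simp only [rk_mulVec, hx', one_smul, zero_mulVec] at this
    exact hx0 this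
  · intro M hM g hgM hg hgS
    set Mg := (M ⊓ commutator (orth Qc)).map hom with hMg
    have hlift : ∀ X, InM Om X → IsPure X → InM Mg X := by
      rintro X ⟨y, ⟨k, hk, rfl⟩, rfl⟩ hp
      exact ⟨hom k, ⟨k, ⟨hM k hk (isPure_mem_kronecker (by omega) (by omega) _ hp), hk⟩, rfl⟩, rfl⟩
    have H : Over JA JB (⇑Qc) Mg :=
      { sA := hA
        sB := hB
        six := hb6
        qpolar := fun u v => by
          have := hpol u v
          rw [polar] at this
          linear_combination this
        qpure := hpure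
        qiso := by
          rintro y ⟨k, -, rfl⟩ v
          rw [hhom, toGLHom_mulVec, orth_map]
        left := fun v d => hlift _ (hL v d) ⟨_, _, rfl⟩
        right := fun w d => hlift _ (hR w d) ⟨_, _, rfl⟩ }
    have hq : (∃ r : F, r ≠ 0 ∧ r ≠ 1) ∨ ((2 : F) = 0 ∧ 4 ≤ Fintype.card (Fin a)) := by
      by_cases h : ∃ r : F, r ≠ 0 ∧ r ≠ 1
      · exact Or.inl h
      have ha2 := hex.resolve_left h
      push Not at h
      refine Or.inr ⟨?_, by simp; omega⟩
      by_contra h2
      exact one_ne_zero (α := F) (by linear_combination h 2 h2)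
    by_cases hgood : Good JA JB Mg
    · exact absurd (isPure_mem_kronecker (by omega) (by omega) _
        (H.all_pure (fun C hC => H.scalar_of_good hq hgood hC) (by simpa using hab2) (hom g)
          ⟨g, ⟨hgM, hg⟩, rfl⟩)) hgS
    · intro k hk
      obtain ⟨k', hk', hkk⟩ := H.commutator_le Qc rfl hQ hgood (by simp; omega) k hk
      exact hinj hkk ▸ hk'.1

end Pairs

section Transport

variable [Fintype F]

/-- The stabiliser of a tensor decomposition of symplectic type is maximal in `Ω`. -/
theorem omega_tensor_maximal {n n₁ n₂ : ℕ} (hn : 13 ≤ n) (Q : (Fin n → F) → F)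
    (hQ : IsNondegenerateQuadraticForm Q) (h12 : n₁ < n₂) (hex : ¬ (Fintype.card F = 2 ∧ n₁ = 2))
    (e : Fin n ≃ Fin n₁ × Fin n₂) (P : GL (Fin n) F) (f₁ : (Fin n₁ → F) → (Fin n₁ → F) → F)
    (f₂ : (Fin n₂ → F) → (Fin n₂ → F) → F) (hf₁ : IsSymplecticForm f₁) (hf₂ : IsSymplecticForm f₂)
    (hT : IsTensorFormStructure id (QuadraticMap.polar Q) f₁ f₂ e P)
    (hpure : ∀ (x₁ : Fin n₁ → F) (x₂ : Fin n₂ → F),
      Q ((P : Matrix (Fin n) (Fin n) F) *ᵥ ((fun a : Fin n₁ × Fin n₂ => x₁ a.1 * x₂ a.2) ∘ e)) = 0) :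
    IsMaximalIn (omegaGL Q) (tensorProductSubgroup n₁ n₂ e P ⊓ omegaGL Q) := by
  classical
  obtain ⟨c, hc, hT⟩ := hT
  let Φ : GL (Fin n₁ × Fin n₂) F ≃* GL (Fin n) F := (glReindex e.symm).trans (MulAut.conj P)
  let L : (Fin n₁ × Fin n₂ → F) →ₗ[F] (Fin n → F) :=
    (Matrix.mulVecLin (P : Matrix (Fin n) (Fin n) F)).comp (LinearMap.funLeft F F e)
  have hLapp : ∀ x, L x = (P : Matrix (Fin n) (Fin n) F) *ᵥ (x ∘ e) := fun x => rfl
  have hLsurj : Function.Surjective L := fun v =>
    ⟨(((P⁻¹ : GL (Fin n) F) : Matrix (Fin n) (Fin n) F) *ᵥ v) ∘ e.symm, by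
      rw [hLapp, Function.comp_assoc, Equiv.symm_comp_self, Function.comp_id, H98.gl_mulVec_inv]⟩
  set Qc : QuadraticForm F (Fin n₁ × Fin n₂ → F) := (H98.qOfFun Q hQ).comp L with hQc
  have hQcv : ∀ x, Qc x = Q (L x) := fun x => rfl
  have hpol : ∀ u v, QuadraticMap.polar Qc u v = bf ((c • gramMatrix f₁) ⊗ₖ gramMatrix f₂) u v := by
    intro u v
    have : QuadraticMap.polar Qc u v = QuadraticMap.polar Q (L u) (L v) := by
      simp only [QuadraticMap.polar, hQcv, map_add]
    rw [this, hLapp, hLapp, hT, bf_eq_sum, formOfGram, Finset.mul_sum]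
    refine Finset.sum_congr rfl fun p _ => ?_
    rw [Finset.mul_sum]
    refine Finset.sum_congr rfl fun r _ => ?_
    simp only [kroneckerMap_apply, Matrix.smul_apply, smul_eq_mul, id]
    ring
  have hA := sympMat_gram hf₁ hc
  have hB : SympMat (gramMatrix f₂) := by simpa using sympMat_gram hf₂ one_ne_zero
  have hnd : (QuadraticMap.polarBilin Qc).Nondegenerate := by
    have key : ∀ x, (∀ y, bf ((c • gramMatrix f₁) ⊗ₖ gramMatrix f₂) x y = 0) → x = 0 := by
      intro x hx
      by_contra hx0
      have hd : ((c • gramMatrix f₁) ⊗ₖ gramMatrix f₂).det = 0 :=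
        (Matrix.exists_vecMul_eq_zero_iff).1 ⟨x, hx0, funext fun j => by
          have := hx (Pi.single j 1)
          rwa [bf, dotProduct_single_one] at this⟩
      rw [det_kronecker] at hd
      exact ((hA.unit.pow _).mul (hB.unit.pow _)).ne_zero hd
    refine ⟨fun x hx => key x fun y => ?_, fun y hy => key y fun x => ?_⟩
    · have := hx y
      rwa [QuadraticMap.polarBilin_apply_apply, hpol] at this
    · have := hy x
      rwa [QuadraticMap.polarBilin_apply_apply, QuadraticMap.polar_comm, hpol] at this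
  have hnn : n₁ * n₂ = n := by simpa using (Fintype.card_congr e).symm
  have hq : (∃ r : F, r ≠ 0 ∧ r ≠ 1) ∨ n₁ ≠ 2 := by
    by_cases h : n₁ = 2
    · left
      by_contra hc'
      push Not at hc'
      have := Finset.card_le_card (t := ({0, 1} : Finset F)) (fun x (_ : x ∈ Finset.univ) => by
        by_cases hx : x = 0
        · simp [hx]
        · simp [hc' x hx])
      have := Finset.card_le_two (a := (0 : F)) (b := 1)
      have := Fintype.one_lt_card (α := F)
      rw [Finset.card_univ] at *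
      exact hex ⟨by omega, h⟩
    · exact Or.inr h
  have hmax := kronecker_maximal Qc hnd hA hB h12 (by omega) hpol
    (fun x w => by rw [hQcv, hLapp]; exact hpure x w) hq
  have hval : ∀ (y : GL (Fin n₁ × Fin n₂) F) (x : Fin n₁ × Fin n₂ → F),
      (Φ y : Matrix (Fin n) (Fin n) F) *ᵥ L x = L ((y : Matrix _ _ F) *ᵥ x) := by
    intro y x
    change ((P * glReindex e.symm y * P⁻¹ : GL (Fin n) F) : Matrix (Fin n) (Fin n) F) *ᵥ _ = _
    rw [hLapp, hLapp, Units.val_mul, Units.val_mul, ← mulVec_mulVec, H98.gl_inv_mulVec, ← mulVec_mulVec]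
    congr 1
    funext i
    change ((y : Matrix _ _ F).submatrix e.symm.symm e.symm.symm *ᵥ (x ∘ e)) i = _
    rw [Equiv.symm_symm, submatrix_mulVec_equiv, Function.comp_assoc, Equiv.self_comp_symm, Function.comp_id]
  have hiso : (Cfsg.isometryGroup F ⇑Qc).map Φ.toMonoidHom = Cfsg.isometryGroup F Q := by
    have key : ∀ y : GL (Fin n₁ × Fin n₂) F, Φ y ∈ Cfsg.isometryGroup F Q ↔ y ∈ Cfsg.isometryGroup F ⇑Qc := by
      intro y
      constructor
      · intro h u v
        have := h (L u) (L v)
        change Qc ((y : Matrix _ _ F) *ᵥ u) = Qc u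
        change Q ((Φ y : Matrix (Fin n) (Fin n) F) *ᵥ L u) = Q (L u) at this
        rwa [hval] at this
      · intro h u v
        obtain ⟨u', rfl⟩ := hLsurj u
        change Q ((Φ y : Matrix (Fin n) (Fin n) F) *ᵥ L u') = Q (L u')
        rw [hval]
        exact h u' u'
    ext x
    constructor
    · rintro ⟨y, hy, rfl⟩
      exact (key y).2 hy
    · intro hx
      exact ⟨Φ.symm x, (key _).1 (by rwa [Φ.apply_symm_apply]), Φ.apply_symm_apply x⟩
  have homega : (omegaGL ⇑Qc).map Φ.toMonoidHom = omegaGL Q := by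
    rw [H98.OSub.omegaGL_eq_commutator, H98.OSub.omegaGL_eq_commutator, Subgroup.map_commutator, hiso]
  have hT' : tensorProductSubgroup n₁ n₂ e P = (kroneckerSubgroup n₁ n₂ F).map Φ.toMonoidHom := by
    rw [tensorProductSubgroup, Subgroup.map_map]
    rfl
  have := isMaximalIn_map Φ hmax
  rwa [Subgroup.map_inf _ _ _ (show Function.Injective Φ.toMonoidHom from Φ.injective), homega, ← hT'] at this

end Transport

end Cfsg.Agent.H99.TensorS
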