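import Cfsg.Agent.H99.Tensor.Basic

/-!
Adjoints with respect to given Gram matrices, and the factor maps of a tensor product of two symplectic spaces.
-/

set_option autoImplicit false
set_option linter.unusedSectionVars false

namespace Cfsg.Agent.H99.TensorS

open Matrix Tensor
open scoped Kronecker

variable {F : Type*} [Field F]

/-- Gram matrix of a non-degenerate alternating form. -/
structure SympMat {ι : Type} [Fintype ι] [DecidableEq ι] (J : Matrix ι ι F) : Prop where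
  skew : Jᵀ = -J
  diag : ∀ i, J i i = 0
  unit : IsUnit J.det

section One

variable {ι : Type} [Fintype ι] [DecidableEq ι] {J : Matrix ι ι F}

/-- The form of a Gram matrix. -/
def bf (J : Matrix ι ι F) (u v : ι → F) : F := u ᵥ* J ⬝ᵥ v

theorem bf_add_left (u u' v : ι → F) : bf J (u + u') v = bf J u v + bf J u' v := by
  rw [bf, add_vecMul, add_dotProduct]; rfl

theorem bf_add_right (u v v' : ι → F) : bf J u (v + v') = bf J u v + bf J u v' := by
  rw [bf, dotProduct_add]; rfl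

theorem bf_smul_left (c : F) (u v : ι → F) : bf J (c • u) v = c * bf J u v := by
  rw [bf, smul_vecMul, smul_dotProduct]; rfl

theorem bf_smul_right (c : F) (u v : ι → F) : bf J u (c • v) = c * bf J u v := by
  rw [bf, dotProduct_smul]; rfl

theorem bf_zero_left (v : ι → F) : bf J 0 v = 0 := by rw [bf, zero_vecMul, zero_dotProduct]

theorem bf_zero_right (v : ι → F) : bf J v 0 = 0 := by rw [bf, dotProduct_zero]

theorem bf_sub_right (u v v' : ι → F) : bf J u (v - v') = bf J u v - bf J u v' := by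
  rw [bf, dotProduct_sub]; rfl

theorem bf_sub_left (u u' v : ι → F) : bf J (u - u') v = bf J u v - bf J u' v := by
  rw [bf, sub_vecMul, sub_dotProduct]; rfl

theorem bf_eq_sum (u v : ι → F) : bf J u v = ∑ i, ∑ j, u i * J i j * v j := by
  simp only [bf, vecMul, dotProduct, Finset.sum_mul]
  exact Finset.sum_comm

theorem SympMat.swap (hJ : SympMat J) (u v : ι → F) : bf J v u = -bf J u v := by
  rw [bf, bf, ← dotProduct_mulVec, ← vecMul_transpose, hJ.skew, vecMul_neg, dotProduct_neg, dotProduct_comm]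

theorem SympMat.self (hJ : SympMat J) (u : ι → F) : bf J u u = 0 := by
  rw [bf_eq_sum, ← Fintype.sum_prod_type']
  refine Finset.sum_involution (fun p _ => (p.2, p.1)) (fun p _ => ?_) (fun p _ hp => ?_)
    (fun p _ => Finset.mem_univ _) (fun p _ => rfl)
  · have := congrFun (congrFun hJ.skew p.1) p.2
    rw [transpose_apply, Matrix.neg_apply] at this
    change u p.1 * J p.1 p.2 * u p.2 + u p.2 * J p.2 p.1 * u p.1 = 0
    rw [this]; ring
  · intro h
    have : p.1 = p.2 := (congrArg Prod.snd h)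
    exact hp (by rw [this, hJ.diag, mul_zero, zero_mul])

theorem SympMat.zero_comm (hJ : SympMat J) {u v : ι → F} : bf J u v = 0 ↔ bf J v u = 0 := by
  rw [hJ.swap u v, neg_eq_zero]

theorem SympMat.row_ne (hJ : SympMat J) {u : ι → F} (hu : u ≠ 0) : u ᵥ* J ≠ 0 := fun h => hu (by
  have := congrArg (· ᵥ* J⁻¹) h
  simpa [vecMul_vecMul, mul_nonsing_inv J hJ.unit] using this)

theorem SympMat.exists_one (hJ : SympMat J) {u : ι → F} (hu : u ≠ 0) : ∃ v, bf J u v = 1 := by
  obtain ⟨i, hi⟩ := Function.ne_iff.1 (hJ.row_ne hu)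
  exact ⟨Pi.single i ((u ᵥ* J) i)⁻¹, by rw [bf, dotProduct_single, mul_inv_cancel₀ hi]⟩

theorem SympMat.eq_zero (hJ : SympMat J) {u : ι → F} (h : ∀ v, bf J u v = 0) : u = 0 := by
  by_contra hu
  obtain ⟨v, hv⟩ := hJ.exists_one hu
  exact one_ne_zero (hv.symm.trans (h v))

/-- The annihilator of a family. -/
theorem finrank_perp {k : ℕ} (v : Fin k → (ι → F)) :
    ∃ U : Submodule F (ι → F), Fintype.card ι ≤ Module.finrank F U + k ∧ ∀ x ∈ U, ∀ i, bf J (v i) x = 0 := by
  let f : (ι → F) →ₗ[F] (Fin k → F) :=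
    LinearMap.pi fun i =>
      { toFun := fun x => bf J (v i) x
        map_add' := fun x y => bf_add_right _ x y
        map_smul' := fun c x => bf_smul_right c _ x }
  refine ⟨LinearMap.ker f, ?_, fun x hx i => congrFun hx i⟩
  have h1 := LinearMap.finrank_range_add_finrank_ker f
  have h2 := Submodule.finrank_le (LinearMap.range f)
  rw [Module.finrank_pi] at h1 h2
  rw [Fintype.card_fin] at h2
  omega

/-- A non-zero vector orthogonal to a short family. -/
theorem exists_perp {k : ℕ} (v : Fin k → (ι → F)) (hk : k < Fintype.card ι) :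
    ∃ x, x ≠ 0 ∧ ∀ i, bf J (v i) x = 0 := by
  obtain ⟨U, hU, hUv⟩ := finrank_perp (J := J) v
  obtain ⟨x, hx, hx0⟩ := Submodule.exists_mem_ne_zero_of_ne_bot (p := U) fun h => by
    rw [h, finrank_bot] at hU; omega
  exact ⟨x, hx0, hUv x hx⟩

/-- Two vectors not proportional to `z` have a common orthogonal partner of `z`. -/
theorem SympMat.exists_common (hJ : SympMat J) {z a c : ι → F} (ha : ∀ t : F, a ≠ t • z) (hc : ∀ t : F, c ≠ t • z) :
    ∃ e, bf J z e = 0 ∧ bf J e a ≠ 0 ∧ bf J e c ≠ 0 := by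
  have one : ∀ a : ι → F, (∀ t : F, a ≠ t • z) → ∃ e, bf J z e = 0 ∧ bf J e a ≠ 0 := by
    intro a ha
    by_contra h
    push Not at h
    rcases eq_or_ne z 0 with rfl | hz
    · exact ha 0 (by rw [hJ.eq_zero fun v => hJ.zero_comm.1 (h v (bf_zero_left v)), smul_zero])
    obtain ⟨z', hz'⟩ := hJ.exists_one hz
    refine ha (bf J a z') (sub_eq_zero.1 (hJ.eq_zero fun v => ?_))
    have := h (v - bf J z v • z') (by rw [bf_sub_right, bf_smul_right, hz']; ring)
    rw [bf_sub_left, bf_smul_left] at this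
    rw [bf_sub_left, bf_smul_left, hJ.swap v a, hJ.swap z' a]
    linear_combination -this
  obtain ⟨e₁, h1, h1'⟩ := one a ha
  obtain ⟨e₂, h2, h2'⟩ := one c hc
  by_cases k1 : bf J e₁ c = 0
  swap
  · exact ⟨e₁, h1, h1', k1⟩
  by_cases k2 : bf J e₂ a = 0
  swap
  · exact ⟨e₂, h2, k2, h2'⟩
  exact ⟨e₁ + e₂, by rw [bf_add_right, h1, h2, add_zero], by rwa [bf_add_left, k2, add_zero],
    by rwa [bf_add_left, k1, zero_add]⟩

/-- Two non-zero vectors have a common partner. -/
theorem SympMat.exists_common₂ (hJ : SympMat J) {a c : ι → F} (ha : a ≠ 0) (hc : c ≠ 0) :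
    ∃ e, bf J e a ≠ 0 ∧ bf J e c ≠ 0 := by
  obtain ⟨e, -, h⟩ := hJ.exists_common (z := 0) (a := a) (c := c) (fun t => by rwa [smul_zero])
    (fun t => by rwa [smul_zero])
  exact ⟨e, h⟩

end One

section Adj

variable {m n p : Type} [Fintype m] [DecidableEq m] [Fintype n] [DecidableEq n] [Fintype p] [DecidableEq p]

/-- The adjoint with respect to two Gram matrices. -/
noncomputable def adj (J₁ : Matrix m m F) (J₂ : Matrix n n F) (X : Matrix n m F) : Matrix m n F := J₁⁻¹ * Xᵀ * J₂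

theorem adj_add (J₁ : Matrix m m F) (J₂ : Matrix n n F) (X Y : Matrix n m F) :
    adj J₁ J₂ (X + Y) = adj J₁ J₂ X + adj J₁ J₂ Y := by
  rw [adj, transpose_add, Matrix.mul_add, Matrix.add_mul]; rfl

theorem adj_smul (J₁ : Matrix m m F) (J₂ : Matrix n n F) (c : F) (X : Matrix n m F) :
    adj J₁ J₂ (c • X) = c • adj J₁ J₂ X := by
  rw [adj, transpose_smul, Matrix.mul_smul, Matrix.smul_mul]; rfl

theorem adj_zero (J₁ : Matrix m m F) (J₂ : Matrix n n F) : adj J₁ J₂ (0 : Matrix n m F) = 0 := by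
  simp [adj]

theorem adj_one {J : Matrix m m F} (hJ : IsUnit J.det) : adj J J (1 : Matrix m m F) = 1 := by
  rw [adj, transpose_one, Matrix.mul_one, nonsing_inv_mul J hJ]

theorem adj_mul {J₁ : Matrix m m F} {J₂ : Matrix n n F} {J₃ : Matrix p p F} (h : IsUnit J₂.det)
    (X : Matrix p n F) (Y : Matrix n m F) : adj J₁ J₃ (X * Y) = adj J₁ J₂ Y * adj J₂ J₃ X := by
  simp only [adj, transpose_mul, Matrix.mul_assoc, mul_nonsing_inv_cancel_left J₂ _ h]

theorem adj_rank {J : Matrix m m F} (hJ : IsUnit J.det) (X : Matrix m m F) : (adj J J X).rank = X.rank := by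
  rw [adj, rank_mul_eq_left_of_isUnit_det _ _ hJ, rank_mul_eq_right_of_isUnit_det _ _ (isUnit_nonsing_inv_det J hJ),
    rank_transpose]

theorem adj_det {J : Matrix m m F} (hJ : IsUnit J.det) (X : Matrix m m F) : (adj J J X).det = X.det := by
  rw [adj, det_mul, det_mul, det_transpose, det_nonsing_inv, mul_right_comm, Ring.inverse_mul_cancel _ hJ, one_mul]

theorem adj_inj {J₁ : Matrix m m F} {J₂ : Matrix n n F} (h₁ : IsUnit J₁.det) (h₂ : IsUnit J₂.det)
    {X Y : Matrix n m F} (h : adj J₁ J₂ X = adj J₁ J₂ Y) : X = Y := by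
  have := congrArg (fun Z => J₁ * Z * J₂⁻¹) h
  simp only [adj, ← Matrix.mul_assoc, mul_nonsing_inv J₁ h₁, Matrix.one_mul,
    mul_nonsing_inv_cancel_right J₂ _ h₂] at this
  exact transpose_injective this

theorem adj_adj {J₁ : Matrix m m F} {J₂ : Matrix n n F} (h₁ : IsUnit J₁.det) (h₂ : IsUnit J₂.det) {ε₁ ε₂ : F}
    (e₁ : J₁ᵀ = ε₁ • J₁) (e₂ : J₂ᵀ = ε₂ • J₂) (hε : ε₁ * ε₁ = 1) (X : Matrix n m F) :
    adj J₂ J₁ (adj J₁ J₂ X) = (ε₁ * ε₂) • X := by
  have e : (J₁⁻¹)ᵀ = ε₁ • J₁⁻¹ := by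
    refine (left_inv_eq_left_inv (A := J₁ᵀ) ?_ ?_)
    · rw [← transpose_mul, mul_nonsing_inv J₁ h₁, transpose_one]
    · rw [e₁, Matrix.smul_mul, Matrix.mul_smul, smul_smul, hε, one_smul, nonsing_inv_mul J₁ h₁]
  rw [adj, adj, transpose_mul, transpose_mul, transpose_transpose, e₂, e]
  simp only [Matrix.smul_mul, Matrix.mul_smul, smul_smul, ← Matrix.mul_assoc, nonsing_inv_mul J₂ h₂, Matrix.one_mul,
    nonsing_inv_mul_cancel_right J₁ _ h₁]

theorem adj_kron {J₁ : Matrix m m F} {J₂ : Matrix n n F} (g : Matrix m m F) (k : Matrix n n F) :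
    adj (J₁ ⊗ₖ J₂) (J₁ ⊗ₖ J₂) (g ⊗ₖ k) = adj J₁ J₁ g ⊗ₖ adj J₂ J₂ k := by
  rw [adj, adj, adj, inv_kronecker, ← kroneckerMap_transpose, ← mul_kronecker_mul, ← mul_kronecker_mul]

theorem adj_pow {J : Matrix m m F} (hJ : IsUnit J.det) (X : Matrix m m F) (k : ℕ) :
    adj J J (X ^ k) = adj J J X ^ k := by
  induction k with
  | zero => rw [pow_zero, pow_zero, adj_one hJ]
  | succ k ih => rw [pow_succ, pow_succ', adj_mul hJ, ih]

theorem adj_vecMul {J : Matrix m m F} (hJ : SympMat J) (h : Matrix m m F) (x : m → F) :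
    (adj J J h *ᵥ x) ᵥ* J = (x ᵥ* J) ᵥ* h := by
  have hs : adj J J (adj J J h) = h := by
    rw [adj_adj hJ.unit hJ.unit (ε₁ := -1) (ε₂ := -1) (by rw [hJ.skew, neg_one_smul]) (by rw [hJ.skew, neg_one_smul])
      (by ring), neg_one_mul, neg_neg, one_smul]
  conv_rhs => rw [← hs]
  rw [adj, adj, vecMul_vecMul, ← Matrix.mul_assoc, ← Matrix.mul_assoc, mul_nonsing_inv J hJ.unit, Matrix.one_mul,
    ← vecMul_transpose, vecMul_vecMul]

end Adj

end Cfsg.Agent.H99.TensorS
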