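import Cfsg.Agent.H99.TensorS.Radical
import Cfsg.Agent.H5.RootClosure
import Cfsg.Agent.H5.Siegel
import Cfsg.Agent.H5.OmegaGL

/-!
A root element of the second kind gives the whole orthogonal root groups of pure vectors.
-/

set_option autoImplicit false
set_option linter.unusedSectionVars false

namespace Cfsg.Agent.H99.TensorS

open Matrix Tensor
open scoped Kronecker

variable {F : Type*} [Field F] {α : Type} [Fintype α] [DecidableEq α] {b : ℕ} {JA : Matrix α α F}
  {JB : Matrix (Fin b) (Fin b) F}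

local notation "Ix" => α × Fin b

theorem pv_add_left (x y : α → F) (w : Fin b → F) : pv (x + y) w = pv x w + pv y w := by
  funext p
  exact add_mul _ _ _

theorem pv_add_right (x : α → F) (w z : Fin b → F) : pv x (w + z) = pv x w + pv x z := by
  funext p
  exact mul_add _ _ _

theorem pv_smul_left (c : F) (x : α → F) (w : Fin b → F) : pv (c • x) w = c • pv x w := by
  funext p
  exact mul_assoc _ _ _

theorem pv_smul_right (c : F) (x : α → F) (w : Fin b → F) : pv x (c • w) = c • pv x w := by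
  funext p
  exact mul_left_comm _ _ _

theorem pv_sub_left (x y : α → F) (w : Fin b → F) : pv (x - y) w = pv x w - pv y w := by
  funext p
  exact sub_mul _ _ _

theorem pv_zero_left (w : Fin b → F) : pv (0 : α → F) w = 0 := by
  funext p
  exact zero_mul _

theorem pv_zero_right (x : α → F) : pv x (0 : Fin b → F) = 0 := by
  funext p
  exact mul_zero _

theorem pv_sum (a : Ix → F) : a = ∑ i, pv (Pi.single i 1) (fun k => a (i, k)) := by
  funext ⟨j, k⟩
  rw [Finset.sum_apply, Finset.sum_eq_single j (fun i _ hi => by simp [pv, Pi.single_eq_of_ne (Ne.symm hi)])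
    (by simp)]
  simp [pv]

variable {Q : (α × Fin b → F) → F} {M : Subgroup (GL (α × Fin b) F)} (H : Over JA JB Q M)
include H

/-- All root elements of the second kind. -/
theorem Over.root_two (hbad : ¬ Good JA JB M) (x : α → F) {z η : Fin b → F} (hη : bf JB z η = 0) :
    InM M (1 + rk JA x x ⊗ₖ wedge JB z η) := by
  by_cases h : ∀ t : F, z ≠ t • η
  swap
  · push Not at h
    obtain ⟨t, rfl⟩ := h
    rw [wedge_smul_left, wedge_self, smul_zero, kronecker_zero, add_zero]
    exact InM.one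
  have hall : InK JA JB M (rk JA x x) := by
    simp only [Good, not_forall] at hbad
    obtain ⟨x₀, h₀, hx₀⟩ := hbad
    rcases eq_or_ne x 0 with rfl | hx
    · rw [rk_zero_left]; exact H.inK_zero
    obtain ⟨g, hg, -, hgx⟩ := H.left_map hx₀ hx one_ne_zero
    have := H.inK_conj h₀ hg
    rwa [rk_conj H.sA, hgx, one_smul] at this
  have := H.inK_exact hall (by rw [adj_rk H.sA, Matrix.neg_mul, rk_mul, H.sA.self, zero_smul, neg_zero])
    (H.sB.zero_comm.1 hη) h
  rw [el_lft H.sA, adj_rk H.sA, zero_kronecker, add_zero, add_assoc] at this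
  rw [wedge, sub_eq_add_neg, kronecker_add, ← neg_one_smul F (rk JB η z), kronecker_smul, ← smul_kronecker,
    neg_one_smul]
  exact this

/-- Root elements at two pure vectors. -/
theorem Over.root_pure (hbad : ¬ Good JA JB M) {x y : α → F} {z ξ : Fin b → F} (hxy : bf JA x y ≠ 0)
    (hzξ : bf JB z ξ = 0) : InM M (1 + wedge (JA ⊗ₖ JB) (pv x z) (pv y ξ)) := by
  suffices h : ∀ z : Fin b → F, bf JB z ξ = 0 →
      InM M (1 + bf JA x y • wedge (JA ⊗ₖ JB) (pv x z) (pv y ξ)) by
    have := h ((bf JA x y)⁻¹ • z) (by rw [bf_smul_left, hzξ, mul_zero])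
    rwa [pv_smul_right, wedge_smul_left, smul_smul, mul_inv_cancel₀ hxy, one_smul] at this
  intro z hzξ
  obtain ⟨η, η', hη, hη', hηη⟩ := H.sB.exists_pair ![z, ξ] (by have := H.six; simp; omega)
  have a1 : bf JB z η = 0 := hη 0
  have a2 : bf JB ξ η = 0 := hη 1
  have a3 : bf JB z η' = 0 := hη' 0
  have a4 : bf JB ξ η' = 0 := hη' 1
  have b1 := H.sB.zero_comm.1 a1
  have b2 := H.sB.zero_comm.1 a2
  have b3 := H.sB.zero_comm.1 a3
  have b4 := H.sB.zero_comm.1 a4
  have b5 := H.sB.zero_comm.1 hzξ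
  have hη'η : bf JB η' η = -1 := by rw [H.sB.swap η η', hηη]
  have hyx : bf JA y x = -bf JA x y := H.sA.swap x y
  have hA := H.root_two hbad x a1
  have hB := H.root_two hbad y b4
  set A := rk JA x x ⊗ₖ wedge JB z η with hAd
  set B := rk JA y y ⊗ₖ wedge JB η' ξ with hBd
  have eAA : A * A = 0 := by rw [hAd, ← mul_kronecker_mul, rk_mul, H.sA.self, zero_smul, zero_kronecker]
  have eBB : B * B = 0 := by rw [hBd, ← mul_kronecker_mul, rk_mul, H.sA.self, zero_smul, zero_kronecker]
  have eAB : A * B = bf JA x y • rk (JA ⊗ₖ JB) (pv x z) (pv y ξ) := by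
    rw [hAd, hBd, ← mul_kronecker_mul, rk_mul, ← rk_kron, ← smul_kronecker]
    congr 1
    simp [wedge, Matrix.mul_sub, Matrix.sub_mul, rk_mul, a3, hzξ, b2, hηη]
  have eBA : B * A = bf JA x y • rk (JA ⊗ₖ JB) (pv y ξ) (pv x z) := by
    rw [hAd, hBd, ← mul_kronecker_mul, rk_mul, hyx, ← rk_kron, smul_kronecker, ← kronecker_smul,
      ← kronecker_smul (bf JA x y)]
    congr 1
    simp [wedge, Matrix.mul_sub, Matrix.sub_mul, rk_mul, a2, b3, b5, hη'η]
  have eABA : A * B * A = 0 := by
    rw [hAd, hBd, ← mul_kronecker_mul, ← mul_kronecker_mul]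
    simp [wedge, Matrix.mul_sub, Matrix.sub_mul, rk_mul, a3, hzξ, b2, a2, b5, b1, hηη, H.sB.self]
  have eBAB : B * A * B = 0 := by
    rw [hAd, hBd, ← mul_kronecker_mul, ← mul_kronecker_mul]
    simp [wedge, Matrix.mul_sub, Matrix.sub_mul, rk_mul, a2, b3, b5, a3, hzξ, a4, hη'η, H.sB.self]
  have hc := H.comm₂ hA hB eAA eBB eABA eBAB
  rwa [eAB, eBA, ← smul_sub, ← wedge] at hc

section Orth

open H5 QuadraticMap

variable [Finite F] (Qc : QuadraticForm F (α × Fin b → F)) (hf : ⇑Qc = Q)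
  (hQ : (polarBilin Qc).Nondegenerate) [Nonempty α]
include hf

theorem Over.polar_eq (u v : Ix → F) : polar Qc u v = bf (JA ⊗ₖ JB) u v := by
  rw [polar, hf, H.qpolar]
  ring

theorem Over.rootIn_of (M' : Subgroup (orth Qc)) (hM' : ∀ g, toGLHom Qc hf g ∈ M → g ∈ M') {u a : Ix → F}
    (hu : Q u = 0) (ha : Q a = 0) (hua : bf (JA ⊗ₖ JB) u a = 0) (h : InM M (1 + wedge (JA ⊗ₖ JB) a u)) :
    RootIn M' u a := by
  have hu' : Qc u = 0 := by rw [hf, hu]
  have hua' : polar Qc u a = 0 := by rw [H.polar_eq Qc hf, hua]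
  refine ⟨hu', hua', hM' _ ?_⟩
  obtain ⟨y, hy, hyX⟩ := h
  convert hy using 1
  refine Units.ext (Matrix.ext_of_mulVec_single fun i => ?_)
  rw [toGLHom_mulVec, eich_apply hu' hua', hyX, H.polar_eq Qc hf, H.polar_eq Qc hf, hf, ha, zero_mul, zero_smul,
    sub_zero, add_mulVec, one_mulVec, wedge, sub_mulVec, rk_mulVec, rk_mulVec, add_sub_assoc]

include hQ

/-- The whole group follows from a root element of the second kind. -/
theorem Over.commutator_le (hbad : ¬ Good JA JB M) (hn : 5 ≤ Fintype.card α * b) :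
    ∀ g ∈ commutator (orth Qc), toGLHom Qc hf g ∈ M := by
  classical
  set M' := M.comap (toGLHom Qc hf) with hM'def
  have hM' : ∀ g, toGLHom Qc hf g ∈ M → g ∈ M' := fun g h => h
  have hpz : ∀ (x : α → F) (w : Fin b → F), Qc (pv x w) = 0 := fun x w => by rw [hf, H.qpure]
  have hzero : ∀ (u : Ix → F), Qc u = 0 → RootIn M' u 0 := fun u hu =>
    ⟨hu, by rw [polar_zero_right], by rw [eich_zero]; exact one_mem _⟩
  have hleft : ∀ a : Ix → F, RootIn M' 0 a := fun a =>
    ⟨QuadraticMap.map_zero _, polar_zero_left _ _, by rw [eich_zero_left]; exact one_mem _⟩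
  -- orthogonal second factors
  have r1 : ∀ (x y : α → F) (z ξ : Fin b → F), bf JB z ξ = 0 → RootIn M' (pv x z) (pv y ξ) := by
    intro x y z ξ hzξ
    rcases eq_or_ne x 0 with rfl | hx
    · rw [pv_zero_left]; exact hleft _
    have key : ∀ y, bf JA x y ≠ 0 → RootIn M' (pv x z) (pv y ξ) := fun y hy =>
      H.rootIn_of Qc hf M' hM' (H.qpure _ _) (H.qpure _ _) (by rw [bf_pv, hzξ, mul_zero])
        (H.root_pure hbad (fun h => hy (H.sA.zero_comm.1 h)) (H.sB.zero_comm.1 hzξ))
    by_cases hxy : bf JA x y = 0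
    swap
    · exact key y hxy
    obtain ⟨y₁, hy₁⟩ := H.sA.exists_one hx
    have := (key (y + y₁) (by rw [bf_add_right, hxy, zero_add, hy₁]; exact one_ne_zero)).sub
      (key y₁ (by rw [hy₁]; exact one_ne_zero))
    rwa [← pv_sub_left, add_sub_cancel_right] at this
  -- orthogonal first factors
  have r2 : ∀ (x y : α → F) (z w : Fin b → F), bf JA x y = 0 → RootIn M' (pv x z) (pv y w) := by
    intro x y z w hxy
    rcases eq_or_ne x 0 with rfl | hx
    · rw [pv_zero_left]; exact hleft _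
    obtain ⟨η, ξ, hη, hξ, hηξ⟩ := H.sB.exists_pair ![z, w] (by have := H.six; simp; omega)
    obtain ⟨x₁, hx₁⟩ := H.sA.exists_one hx
    have hzη : bf JB z η = 0 := hη 0
    have hwη : bf JB w η = 0 := hη 1
    have hzξ : bf JB z ξ = 0 := hξ 0
    have hwξ : bf JB w ξ = 0 := hξ 1
    have hg := r1 y x w η hwη
    set g := eich Qc (pv y w) (pv x η) with hgdef
    have happ : ∀ v : Ix → F, (g : (Ix → F) ≃ₗ[F] (Ix → F)) v =
        v + bf (JA ⊗ₖ JB) (pv y w) v • pv x η - bf (JA ⊗ₖ JB) (pv x η) v • pv y w := fun v => by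
      rw [hgdef, eich_apply hg.1 hg.2.1, hpz, zero_mul, zero_smul, sub_zero, H.polar_eq Qc hf, H.polar_eq Qc hf]
    have h1 := r1 x x₁ z ξ hzξ
    have h2 := RootIn.conj hg.2.2 h1
    rw [happ, happ] at h2
    simp only [bf_pv, H.sA.zero_comm.1 hxy, H.sB.zero_comm.1 hzη, hwξ, hx₁, hηξ, zero_mul, mul_zero, zero_smul,
      one_mul, one_smul, add_zero, sub_zero] at h2
    simpa using h1.sub h2
  have hpure : ∀ (x y : α → F) (z w : Fin b → F), bf JA x y = 0 ∨ bf JB z w = 0 →
      RootIn M' (pv x z) (pv y w) := by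
    intro x y z w h
    rcases h with h | h
    · exact r2 x y z w h
    · exact r1 x y z w h
  have full : ∀ (x : α → F) (z : Fin b → F), x ≠ 0 → z ≠ 0 → FullRoot M' (pv x z) := by
    intro x z hx hz
    obtain ⟨x', hx'⟩ := H.sA.exists_one hx
    obtain ⟨z', hz'⟩ := H.sB.exists_one hz
    refine ⟨hpz x z, fun a ha => ?_⟩
    rw [H.polar_eq Qc hf] at ha
    let c : α → F := fun i => bf JA x (Pi.single i 1)
    let d : α → F := fun i => bf JB z (fun k => a (i, k))
    have hdec : a = (∑ i, (pv (Pi.single i 1 - c i • x') (fun k => a (i, k)) +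
        pv (c i • x') ((fun k => a (i, k)) - d i • z'))) + (∑ i, c i * d i) • pv x' z' := by
      conv_lhs => rw [pv_sum a]
      rw [Finset.sum_smul, ← Finset.sum_add_distrib]
      refine Finset.sum_congr rfl fun i _ => ?_
      funext p
      simp [pv]
      ring
    have hcd : ∑ i, c i * d i = 0 := by
      rw [← ha]
      conv_rhs => rw [pv_sum a]
      simp only [bf, dotProduct_sum]
      exact Finset.sum_congr rfl fun i _ => (bf_pv x (Pi.single i 1) z _).symm
    rw [hcd, zero_smul, add_zero] at hdec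
    have : RootIn M' (pv x z) a := by
      rw [hdec]
      refine Finset.sum_induction _ (RootIn M' (pv x z)) (fun u v hu hv => hu.add hv) (hzero _ (hpz x z))
        fun i _ => (hpure _ _ _ _ (Or.inl ?_)).add (hpure _ _ _ _ (Or.inr ?_))
      · rw [bf_sub_right, bf_smul_right, hx', mul_one, sub_self]
      · rw [bf_sub_right, bf_smul_right, hz', mul_one, sub_self]
    exact this.2.2
  obtain ⟨x₀, -, hx₀⟩ : ∃ x : α → F, (∀ t : F, True) ∧ x ≠ 0 := by
    obtain ⟨i⟩ := ‹Nonempty α›
    exact ⟨Pi.single i 1, fun _ => trivial, fun h => by simpa using congrFun h i⟩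
  obtain ⟨x₁, hx₁⟩ := H.sA.exists_one hx₀
  let z₀ : Fin b → F := Pi.single ⟨0, by have := H.six; omega⟩ 1
  have hz₀ : z₀ ≠ 0 := fun h => by simpa [z₀] using congrFun h ⟨0, by have := H.six; omega⟩
  obtain ⟨z₁, hz₁⟩ := H.sB.exists_one hz₀
  have hx₁0 : x₁ ≠ 0 := fun h => by rw [h, bf_zero_right] at hx₁; exact zero_ne_one hx₁
  have hz₁0 : z₁ ≠ 0 := fun h => by rw [h, bf_zero_right] at hz₁; exact zero_ne_one hz₁
  haveI : Finite (Ix → F) := Pi.finite
  exact fun g hg => commutator_le_of_fullRoot hQ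
    (by rw [Module.finrank_fintype_fun_eq_card, Fintype.card_prod, Fintype.card_fin]; exact hn)
    (full x₀ z₀ hx₀ hz₀) (full x₁ z₁ hx₁0 hz₁0)
    (by rw [H.polar_eq Qc hf, bf_pv, hx₁, hz₁, mul_one]; exact one_ne_zero) hg

end Orth

end Cfsg.Agent.H99.TensorS
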