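import Cfsg.Agent.H99.TensorS.Symp
import Cfsg.Agent.H99.Tensor.Descent

/-!
The unipotent radicals attached to vectors of the second factor, and the matrices of the first factor occurring in
their middle parts.
-/

set_option autoImplicit false
set_option linter.unusedSectionVars false

namespace Cfsg.Agent.H99.TensorS

open Matrix Tensor
open scoped Kronecker

variable {F : Type*} [Field F] {α : Type} [Fintype α] [DecidableEq α] {b : ℕ} {JA : Matrix α α F}
  {JB : Matrix (Fin b) (Fin b) F}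

local notation "Ix" => α × Fin b

/-- An element of the unipotent radical attached to a vector of the second factor. -/
noncomputable def el (JA : Matrix α α F) (JB : Matrix (Fin b) (Fin b) F) (z : Fin b → F)
    (A : Matrix (α × Fin b) α F) (G : Matrix α α F) : Matrix (α × Fin b) (α × Fin b) F :=
  1 + A * phi α JB z + lft α z * adj JA (JA ⊗ₖ JB) A + lft α z * G * phi α JB z

theorem kron_pv (g : Matrix α α F) (h : Matrix (Fin b) (Fin b) F) (x : α → F) (w : Fin b → F) :
    (g ⊗ₖ h) *ᵥ pv x w = pv (g *ᵥ x) (h *ᵥ w) := by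
  funext p
  simp only [mulVec, dotProduct, pv, kroneckerMap_apply, Fintype.sum_prod_type, Finset.sum_mul_sum]
  exact Finset.sum_congr rfl fun i _ => Finset.sum_congr rfl fun j _ => by ring

theorem neg_kron_neg (A : Matrix α α F) (B : Matrix (Fin b) (Fin b) F) : (-A) ⊗ₖ (-B) = A ⊗ₖ B := by
  ext p r
  simp [kroneckerMap_apply]

theorem phi_zero : phi α JB (0 : Fin b → F) = 0 := by rw [phi, zero_vecMul, rgt_zero]

theorem el_scalar (z : Fin b → F) (G : Matrix α α F) : el JA JB z 0 G = 1 + G ⊗ₖ rk JB z z := by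
  rw [el, adj_zero, Matrix.zero_mul, Matrix.mul_zero, add_zero, add_zero, lft_mid_phi]

theorem el_one (z : Fin b → F) : el JA JB z 0 0 = 1 := by rw [el_scalar, zero_kronecker, add_zero]

theorem adjA_lft (hA : SympMat JA) (w : Fin b → F) : adj JA (JA ⊗ₖ JB) (lft α w) = phi α JB w := by
  have e : (lft α w)ᵀ = rgt α w := by
    ext i p
    rw [transpose_apply, lft_apply, rgt_apply]
  rw [adj, e, Matrix.mul_assoc, rgt_kron, nonsing_inv_mul_cancel_left JA _ hA.unit]
  rfl

theorem adjA_mul (hA : SympMat JA) (A : Matrix Ix α F) (K : Matrix α α F) :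
    adj JA (JA ⊗ₖ JB) (A * K) = adj JA JA K * adj JA (JA ⊗ₖ JB) A :=
  adj_mul hA.unit A K

theorem adjA_lft_mul (hA : SympMat JA) (w : Fin b → F) (C : Matrix α α F) :
    adj JA (JA ⊗ₖ JB) (lft α w * C) = adj JA JA C * phi α JB w := by
  rw [adjA_mul hA, adjA_lft hA]

theorem adjA_smul (c : F) (A : Matrix Ix α F) : adj JA (JA ⊗ₖ JB) (c • A) = c • adj JA (JA ⊗ₖ JB) A :=
  adj_smul _ _ c A

theorem el_lft (hA : SympMat JA) (z η : Fin b → F) (C G : Matrix α α F) :
    el JA JB z (lft α η * C) G = 1 + C ⊗ₖ rk JB η z + adj JA JA C ⊗ₖ rk JB z η + G ⊗ₖ rk JB z z := by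
  rw [el, adjA_lft_mul hA, lft_mid_phi, lft_mid_phi, ← Matrix.mul_assoc, lft_mid_phi]

variable {Q : (α × Fin b → F) → F} {M : Subgroup (GL (α × Fin b) F)} (H : Over JA JB Q M)
include H

theorem Over.adj_down (A : Matrix Ix α F) : adj (JA ⊗ₖ JB) JA (adj JA (JA ⊗ₖ JB) A) = -A := by
  rw [adj_adj H.sA.unit H.unitJ (ε₁ := -1) (ε₂ := 1) (by rw [H.sA.skew, neg_one_smul])
    (by rw [H.skewJ, one_smul]) (by ring), mul_one, neg_one_smul]

theorem Over.adjA_mul_iso (X : Matrix Ix Ix F) (A : Matrix Ix α F) :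
    adj JA (JA ⊗ₖ JB) (X * A) = adj JA (JA ⊗ₖ JB) A * adj (JA ⊗ₖ JB) (JA ⊗ₖ JB) X :=
  adj_mul H.unitJ X A

theorem Over.adj_phi (w : Fin b → F) : adj (JA ⊗ₖ JB) JA (phi α JB w) = -lft α w := by
  rw [← adjA_lft H.sA, H.adj_down]

theorem Over.adjA_lft_right (A : Matrix Ix α F) (w : Fin b → F) :
    adj JA (JA ⊗ₖ JB) A * lft α w = -adj JA JA (phi α JB w * A) := by
  rw [adj_mul H.unitJ, H.adj_phi, Matrix.mul_neg, neg_neg]

theorem Over.el_mul {z : Fin b → F} {A A' : Matrix Ix α F} (G G' : Matrix α α F)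
    (hA : phi α JB z * A = 0) (hA' : phi α JB z * A' = 0) :
    el JA JB z A G * el JA JB z A' G' =
      el JA JB z (A + A') (G + G' + adj JA (JA ⊗ₖ JB) A * A') := by
  have h1 : phi α JB z * lft α z = (0 : Matrix α α F) := by rw [phi_lft, H.sB.self, zero_smul]
  have h2 : adj JA (JA ⊗ₖ JB) A * lft α z = 0 := by rw [H.adjA_lft_right, hA, adj_zero, neg_zero]
  have l1 : ∀ T : Matrix α Ix F, phi α JB z * (A' * T) = 0 := fun T => by
    rw [← Matrix.mul_assoc, hA', Matrix.zero_mul]
  have l2 : ∀ T : Matrix α Ix F, phi α JB z * (lft α z * T) = 0 := fun T => by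
    rw [← Matrix.mul_assoc, h1, Matrix.zero_mul]
  have l3 : ∀ T : Matrix α Ix F, adj JA (JA ⊗ₖ JB) A * (lft α z * T) = 0 := fun T => by
    rw [← Matrix.mul_assoc, h2, Matrix.zero_mul]
  simp only [el, Matrix.mul_add, Matrix.add_mul, Matrix.mul_one, Matrix.one_mul, Matrix.mul_assoc, l1, l2, l3,
    Matrix.mul_zero, adj_add]
  abel

/-- Conjugation of an element of a radical. -/
theorem Over.el_conj {z z₂ : Fin b → F} {X : Matrix Ix Ix F} (hX : InM M X) {h : Matrix α α F}
    (hh : X * lft α z = lft α z₂ * h) {A : Matrix Ix α F} {G : Matrix α α F} (hel : InM M (el JA JB z A G)) :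
    InM M (el JA JB z₂ (X * A * adj JA JA h) (h * G * adj JA JA h)) := by
  set Xs := adj (JA ⊗ₖ JB) (JA ⊗ₖ JB) X with hXs
  have hh' : phi α JB z * Xs = adj JA JA h * phi α JB z₂ := by
    rw [hXs, ← adjA_lft H.sA z, ← H.adjA_mul_iso, hh, adjA_lft_mul H.sA]
  rw [el, add_assoc, add_assoc] at hel
  have h2 := H.conj hel hX
  rw [el, adjA_mul H.sA, adj_self_adj H.sA, H.adjA_mul_iso, ← hXs]
  rw [← hXs] at h2
  convert h2 using 1
  simp only [Matrix.mul_add, Matrix.add_mul]
  simp only [← Matrix.mul_assoc, hh]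
  simp only [Matrix.mul_assoc, hh']
  abel

/-- The inverse of an element of a radical. -/
theorem Over.el_neg {z : Fin b → F} {A : Matrix Ix α F} {G : Matrix α α F} (hA : phi α JB z * A = 0)
    (hel : InM M (el JA JB z A G)) : InM M (el JA JB z (-A) (-G + adj JA (JA ⊗ₖ JB) A * A)) := by
  refine hel.inv ?_
  rw [H.el_mul _ _ hA (by rw [Matrix.mul_neg, hA, neg_zero]), add_neg_cancel, Matrix.mul_neg, ← el_one (JA := JA) z]
  congr 1
  abel

theorem Over.phi_mul_lft_zero {z η : Fin b → F} (h : bf JB z η = 0) (C : Matrix α α F) :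
    phi α JB z * (lft α η * C) = 0 := by
  rw [← Matrix.mul_assoc, phi_lft, h, zero_smul, Matrix.zero_mul]

/-- The difference under a transvection of the second factor. -/
theorem Over.spread {z e : Fin b → F} {A : Matrix Ix α F} {G : Matrix α α F} (hA : phi α JB z * A = 0)
    (he : bf JB z e = 0) (c : F) (hel : InM M (el JA JB z A G)) :
    InM M (el JA JB z (lft α (c • e) * (phi α JB e * A))
      (-(c • (adj JA JA (phi α JB e * A) * (phi α JB e * A))))) := by
  set C := phi α JB e * A with hC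
  set X : Matrix Ix Ix F := (1 : Matrix α α F) ⊗ₖ (1 + c • rk JB e e) with hX
  have hXA : X * A = A + lft α (c • e) * C := by
    rw [hX, kronecker_add, one_kronecker_one, kronecker_smul, ← lft_phi, lft_smul, hC, Matrix.smul_mul,
      Matrix.add_mul, Matrix.one_mul, Matrix.smul_mul, Matrix.mul_assoc]
  have hXz : X * lft α z = lft α z * (1 : Matrix α α F) := by
    rw [hX, kron_lft, add_mulVec, one_mulVec, smul_mulVec, rk_mulVec, H.sB.zero_comm.1 he, zero_smul, smul_zero,
      add_zero]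
  have h1 := H.el_conj (H.right e c) hXz hel
  rw [adj_one H.sA.unit, Matrix.mul_one, Matrix.mul_one, Matrix.one_mul, ← hX, hXA] at h1
  have hz : phi α JB z * (lft α (c • e) * C) = 0 := H.phi_mul_lft_zero (by rw [bf_smul_right, he, mul_zero]) C
  have h2 := h1.mul (H.el_neg hA hel)
  rw [H.el_mul _ _ (by rw [Matrix.mul_add, hA, hz, add_zero]) (by rw [Matrix.mul_neg, hA, neg_zero])] at h2
  convert h2 using 2
  · abel
  · rw [adj_add, adjA_lft_mul H.sA, phi_smul, Matrix.mul_smul, Matrix.mul_neg, Matrix.add_mul, Matrix.smul_mul,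
      Matrix.mul_assoc, ← hC]
    abel

omit H in
/-- A matrix of the first factor occurring in all middle parts. -/
def InK (JA : Matrix α α F) (JB : Matrix (Fin b) (Fin b) F) (M : Subgroup (GL (α × Fin b) F))
    (C : Matrix α α F) : Prop :=
  ∀ z η : Fin b → F, bf JB z η = 0 → ∃ G : Matrix α α F, InM M (el JA JB z (lft α η * C) G)

omit H in
/-- No root element of the second kind. -/
def Good (JA : Matrix α α F) (JB : Matrix (Fin b) (Fin b) F) (M : Subgroup (GL (α × Fin b) F)) : Prop :=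
  ∀ x : α → F, InK JA JB M (rk JA x x) → x = 0

theorem Over.inK_zero : InK JA JB M (0 : Matrix α α F) := fun z η _ =>
  ⟨0, by rw [Matrix.mul_zero, el_one]; exact InM.one⟩

theorem Over.inK_add {C C' : Matrix α α F} (h : InK JA JB M C) (h' : InK JA JB M C') :
    InK JA JB M (C + C') := fun z η hη => by
  obtain ⟨G, hG⟩ := h z η hη
  obtain ⟨G', hG'⟩ := h' z η hη
  have := hG.mul hG'
  rw [H.el_mul _ _ (H.phi_mul_lft_zero hη C) (H.phi_mul_lft_zero hη C'), ← Matrix.mul_add] at this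
  exact ⟨_, this⟩

theorem Over.inK_smul {C : Matrix α α F} (h : InK JA JB M C) (c : F) : InK JA JB M (c • C) := fun z η hη => by
  obtain ⟨G, hG⟩ := h z (c • η) (by rw [bf_smul_right, hη, mul_zero])
  exact ⟨G, by rwa [Matrix.mul_smul, ← Matrix.smul_mul, ← lft_smul]⟩

theorem Over.inK_sub {C C' : Matrix α α F} (h : InK JA JB M C) (h' : InK JA JB M C') :
    InK JA JB M (C - C') := by
  rw [sub_eq_add_neg, ← neg_one_smul F C']
  exact H.inK_add h (H.inK_smul h' _)

theorem Over.inK_conj {C : Matrix α α F} (h : InK JA JB M C) {g : Matrix α α F}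
    (hg : InM M (g ⊗ₖ (1 : Matrix (Fin b) (Fin b) F))) : InK JA JB M (g * C * adj JA JA g) := fun z η hη => by
  obtain ⟨G, hG⟩ := h z η hη
  have := H.el_conj hg (h := g) (by rw [kron_lft, one_mulVec]) hG
  rw [← Matrix.mul_assoc (g ⊗ₖ (1 : Matrix (Fin b) (Fin b) F)) (lft α η), kron_lft, one_mulVec,
    Matrix.mul_assoc (lft α η), Matrix.mul_assoc (lft α η)] at this
  exact ⟨_, this⟩

theorem Over.el_move {z e : Fin b → F} {C G : Matrix α α F} (hel : InM M (el JA JB z (lft α e * C) G))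
    {k : Matrix (Fin b) (Fin b) F} (hk : InM M ((1 : Matrix α α F) ⊗ₖ k)) :
    InM M (el JA JB (k *ᵥ z) (lft α (k *ᵥ e) * C) G) := by
  have := H.el_conj hk (h := 1) (by rw [kron_lft]) hel
  rwa [adj_one H.sA.unit, Matrix.mul_one, Matrix.mul_one, Matrix.one_mul, ← Matrix.mul_assoc, kron_lft,
    Matrix.mul_one] at this

/-- One middle part gives all. -/
theorem Over.inK_of {z e : Fin b → F} (hz0 : z ≠ 0) (he : bf JB z e = 0) (hez : ∀ t : F, e ≠ t • z)
    {C G : Matrix α α F} (hel : InM M (el JA JB z (lft α e * C) G)) : InK JA JB M C := by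
  intro z' η hη
  rcases eq_or_ne z' 0 with rfl | hz'
  · refine ⟨0, ?_⟩
    rw [el, phi_zero, lft_zero, Matrix.mul_zero, Matrix.zero_mul, Matrix.mul_zero, add_zero, add_zero, add_zero]
    exact InM.one
  obtain ⟨k, hk, hku, hkz⟩ := H.right_map hz0 hz' one_ne_zero
  rw [one_smul] at hkz
  have h1 := H.el_move hel hk
  rw [hkz] at h1
  set e' := k *ᵥ e with he'
  have he'z : bf JB z' e' = 0 := by rw [← hkz, he', bf_mulVec H.sB hku, he]
  have hkinj : ∀ v, k *ᵥ v = 0 → v = 0 := fun v hv => by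
    simpa [mulVec_mulVec, hku] using congrArg (adj JB JB k *ᵥ ·) hv
  have he'' : ∀ t : F, e' ≠ t • z' := fun t ht => hez t (sub_eq_zero.1 (hkinj _ (by
    rw [mulVec_sub, mulVec_smul, hkz, ← he', ht, sub_self])))
  -- the vectors outside the line
  have key : ∀ η : Fin b → F, bf JB z' η = 0 → (∀ t : F, η ≠ t • z') →
      ∃ G, InM M (el JA JB z' (lft α η * C) G) := by
    intro η hη hη'
    obtain ⟨u, huz, hue, huη⟩ := H.sB.exists_common he'' hη'
    have hfix : ∀ (a c : Fin b → F) (μ : F), bf JB z' a = 0 → bf JB z' c = 0 → bf JB c a ≠ 0 → μ ≠ 0 →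
        ∃ k : Matrix (Fin b) (Fin b) F, InM M ((1 : Matrix α α F) ⊗ₖ k) ∧ k *ᵥ a = μ • c ∧ k *ᵥ z' = z' := by
      intro a c μ ha hc hca hμ
      obtain ⟨d, f, h⟩ := exists_move H.sB hca hμ
      refine ⟨_, ?_, h, ?_⟩
      · have := (H.right a f).mul (H.right c d)
        rwa [← mul_kronecker_mul, Matrix.one_mul] at this
      · simp only [← mulVec_mulVec, add_mulVec, one_mulVec, smul_mulVec, rk_mulVec, H.sB.zero_comm.1 ha,
          H.sB.zero_comm.1 hc, zero_smul, smul_zero, add_zero]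
    obtain ⟨k₁, hk₁, hk₁e, hk₁z⟩ := hfix e' u 1 he'z huz hue one_ne_zero
    obtain ⟨k₂, hk₂, hk₂u, hk₂z⟩ := hfix u η 1 huz hη (fun h => huη (H.sB.zero_comm.1 h)) one_ne_zero
    have h2 := H.el_move (H.el_move h1 hk₁) hk₂
    rw [hk₁z, hk₂z, hk₁e, one_smul, hk₂u, one_smul] at h2
    exact ⟨G, h2⟩
  by_cases hη' : ∀ t : F, η ≠ t • z'
  · exact key η hη hη'
  push Not at hη'
  obtain ⟨t, rfl⟩ := hη'
  obtain ⟨G₁, h₁⟩ := key (t • z' + e') (by rw [bf_add_right, hη, he'z, add_zero])
    (fun s hs => he'' (s - t) (by rw [sub_smul, ← hs]; abel))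
  obtain ⟨G₂, h₂⟩ := key ((-1 : F) • e') (by rw [bf_smul_right, he'z, mul_zero])
    (fun s hs => he'' (-s) (by rw [neg_smul, ← hs, neg_one_smul, neg_neg]))
  have := h₁.mul h₂
  rw [H.el_mul _ _ (H.phi_mul_lft_zero (by rw [bf_add_right, hη, he'z, add_zero]) C)
    (H.phi_mul_lft_zero (by rw [bf_smul_right, he'z, mul_zero]) C), ← Matrix.add_mul, ← lft_add, neg_one_smul,
    add_neg_cancel_right] at this
  exact ⟨_, this⟩

/-- A contraction of a middle part occurs. -/
theorem Over.inK_contract {z e : Fin b → F} {A : Matrix Ix α F} {G : Matrix α α F} (hA : phi α JB z * A = 0)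
    (hel : InM M (el JA JB z A G)) (hz0 : z ≠ 0) (he : bf JB z e = 0) : InK JA JB M (phi α JB e * A) := by
  by_cases h : ∀ t : F, e ≠ t • z
  · have h1 := H.spread hA he 1 hel
    rw [one_smul] at h1
    exact H.inK_of hz0 he h h1
  push Not at h
  obtain ⟨t, rfl⟩ := h
  rw [phi_smul, Matrix.smul_mul, hA, smul_zero]
  exact H.inK_zero

/-- Middle parts with a null norm occur exactly. -/
theorem Over.inK_exact {C : Matrix α α F} (hC : InK JA JB M C) (hCC : adj JA JA C * C = 0) {z η : Fin b → F}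
    (hη : bf JB z η = 0) (hη' : ∀ t : F, η ≠ t • z) : InM M (el JA JB z (lft α η * C) 0) := by
  obtain ⟨e, hze, -, he⟩ := H.sB.sep₁ hη'
  obtain ⟨G, hG⟩ := hC z e hze
  have h1 := H.spread (H.phi_mul_lft_zero hze C) hη (-1) hG
  rw [← Matrix.mul_assoc (phi α JB η), phi_lft, H.sB.swap e η, he, Matrix.smul_mul, Matrix.one_mul, adj_smul,
    Matrix.smul_mul, Matrix.mul_smul (adj JA JA C), hCC, smul_zero, smul_zero, smul_zero, neg_zero, lft_smul,
    Matrix.smul_mul, Matrix.mul_smul, smul_smul] at h1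
  simpa using h1

/-- A commutator of two elements with null products. -/
theorem Over.comm₂ {A B : Matrix Ix Ix F} (hA : InM M (1 + A)) (hB : InM M (1 + B)) (hAA : A * A = 0)
    (hBB : B * B = 0) (hABA : A * B * A = 0) (hBAB : B * A * B = 0) : InM M (1 + (A * B - B * A)) := by
  have hc := ((hA.mul hB).mul (hA.neg hAA)).mul (hB.neg hBB)
  have e : (1 + A) * (1 + B) * (1 - A) * (1 - B) - (1 + (A * B - B * A)) =
      -(A * A) - B * B + A * A * B - A * (B * B) - A * B * A + B * A * B + A * B * A * B := by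
    noncomm_ring
  rw [hABA, hBAB, hAA, hBB] at e
  simp only [neg_zero, zero_mul, mul_zero, sub_zero, add_zero] at e
  rwa [sub_eq_zero.1 e] at hc

/-- An alternating middle part of rank two gives a root element of the second kind. -/
theorem Over.not_good_of_wedge {x y : α → F} (hx : x ≠ 0) (hy : ∀ t : F, y ≠ t • x) (hxy : bf JA x y = 0)
    (h : InK JA JB M (wedge JA x y)) : ¬ Good JA JB M := by
  intro hgood
  obtain ⟨e, hxe, hex, hey⟩ := H.sA.sep₁ hy
  have hW' : InK JA JB M (wedge JA x e) := by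
    have := H.inK_sub (H.inK_conj h (H.left e 1)) h
    rwa [one_smul, wedge_conj H.sA, show (1 + rk JA e e) *ᵥ x = x by
        rw [add_mulVec, one_mulVec, rk_mulVec, hex, zero_smul, add_zero],
      show (1 + rk JA e e) *ᵥ y = y + e by rw [add_mulVec, one_mulVec, rk_mulVec, hey, one_smul],
      wedge_add_right, add_sub_cancel_left] at this
  obtain ⟨η, η', -, -, hηη⟩ := H.sB.exists_pair (k := 0) ![] (by simp; have := H.six; omega)
  obtain ⟨z, hz0, hzp⟩ := exists_perp (J := JB) ![η, η'] (by simp; have := H.six; omega)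
  obtain ⟨ξ, hξ, hξp⟩ := exists_off (J := JB) ![η, η', z] (Submodule.span F {z})
    (by rw [finrank_span_singleton hz0]; simp; have := H.six; omega)
  have a1 : bf JB η z = 0 := hzp 0
  have a2 : bf JB η' z = 0 := hzp 1
  have a3 : bf JB η ξ = 0 := hξp 0
  have a4 : bf JB η' ξ = 0 := hξp 1
  have a5 : bf JB z ξ = 0 := hξp 2
  have b1 := H.sB.zero_comm.1 a1
  have b2 := H.sB.zero_comm.1 a2
  have b3 := H.sB.zero_comm.1 a3
  have b4 := H.sB.zero_comm.1 a4
  have b5 := H.sB.zero_comm.1 a5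
  have hη'η : bf JB η' η = -1 := by rw [H.sB.swap η η', hηη]
  have hyx := H.sA.zero_comm.1 hxy
  have hye : bf JA y e = -1 := by rw [H.sA.swap e y, hey]
  have hn : ∀ {u v : α → F}, bf JA u v = 0 → adj JA JA (wedge JA u v) * wedge JA u v = 0 := fun {u v} huv => by
    rw [adj_wedge H.sA, wedge_sq H.sA huv]
  have hA := H.inK_exact h (hn hxy) (z := z) (η := η) b1 fun t ht => by
    rw [ht, bf_smul_left, b2, mul_zero] at hηη
    exact zero_ne_one hηη
  have hB := H.inK_exact hW' (hn hxe) (z := ξ) (η := η') b4 fun t ht => by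
    rw [ht, bf_smul_right, a3, mul_zero] at hηη
    exact zero_ne_one hηη
  rw [el_lft H.sA, adj_wedge H.sA, zero_kronecker, add_zero, add_assoc, ← kronecker_add] at hA hB
  set A := wedge JA x y ⊗ₖ (rk JB η z + rk JB z η) with hAd
  set B := wedge JA x e ⊗ₖ (rk JB η' ξ + rk JB ξ η') with hBd
  have eAA : A * A = 0 := by rw [hAd, ← mul_kronecker_mul, wedge_sq H.sA hxy, zero_kronecker]
  have eBB : B * B = 0 := by rw [hBd, ← mul_kronecker_mul, wedge_sq H.sA hxe, zero_kronecker]
  have eAB : A * B = rk JA x x ⊗ₖ rk JB z ξ := by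
    rw [hAd, hBd, ← mul_kronecker_mul]
    simp [wedge, Matrix.mul_sub, Matrix.sub_mul, Matrix.mul_add, Matrix.add_mul, rk_mul, H.sA.self, hxe, hyx, hye,
      b2, a3, a5, hηη]
  have eBA : B * A = rk JA x x ⊗ₖ rk JB ξ z := by
    rw [hAd, hBd, ← mul_kronecker_mul]
    simp [wedge, Matrix.mul_sub, Matrix.sub_mul, Matrix.mul_add, Matrix.add_mul, rk_mul, H.sA.self, hxy, hex, hey,
      b3, a2, b5, hη'η, neg_kron_neg]
  have eABA : A * B * A = 0 := by
    rw [eAB, hAd, ← mul_kronecker_mul]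
    simp [wedge, Matrix.mul_sub, rk_mul, H.sA.self, hxy]
  have eBAB : B * A * B = 0 := by
    rw [eBA, hBd, ← mul_kronecker_mul]
    simp [wedge, Matrix.mul_sub, rk_mul, H.sA.self, hxe]
  have hc := H.comm₂ hA hB eAA eBB eABA eBAB
  rw [eAB, eBA] at hc
  refine hx (hgood x (H.inK_of (z := ξ) (e := z) (G := 0) ?_ b5 (fun t ht => ?_) ?_))
  · intro h0
    exact hξ (by rw [h0]; exact Submodule.zero_mem _)
  · have ht0 : t ≠ 0 := fun h0 => hz0 (by rw [ht, h0, zero_smul])
    exact hξ (Submodule.mem_span_singleton.2 ⟨t⁻¹, by rw [ht, smul_smul, inv_mul_cancel₀ ht0, one_smul]⟩)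
  · rw [el_lft H.sA, adj_rk H.sA, zero_kronecker, add_zero, add_assoc]
    rwa [sub_eq_add_neg, ← neg_one_smul F (rk JA x x ⊗ₖ rk JB ξ z), ← smul_kronecker, neg_one_smul] at hc

/-- Only scalars occur in middle parts. -/
theorem Over.scalar_of_good [Nonempty α]
    (hq : (∃ r : F, r ≠ 0 ∧ r ≠ 1) ∨ ((2 : F) = 0 ∧ 4 ≤ Fintype.card α)) (hgood : Good JA JB M)
    {C : Matrix α α F} (hC : InK JA JB M C) : ∃ c : F, C = c • (1 : Matrix α α F) := by
  classical
  by_contra hns
  by_cases hall : ∀ v, bf JA v (C *ᵥ v) = 0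
  · have hadj : adj JA JA C = C := ext_bf H.sA fun u v => by
      rw [bf_adj H.sA]
      have h1 := hall (u + v)
      rw [mulVec_add, bf_add_left, bf_add_right, bf_add_right, hall, hall, H.sA.swap (C *ᵥ u) v] at h1
      linear_combination h1
    let e := Fintype.equivFin α
    obtain ⟨w, hw⟩ := exists_not_eigen (h := Matrix.reindexAlgEquiv F F e C) fun ⟨c, hc⟩ =>
      hns ⟨c, (Matrix.reindexAlgEquiv F F e).injective (by rw [hc, map_smul, map_one])⟩
    have hns' : ∀ t : F, C *ᵥ (w ∘ e) ≠ t • (w ∘ e) := fun t ht => hw t (by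
      funext i
      have := congrFun ht (e.symm i)
      simpa [mulVec, dotProduct, Matrix.reindexAlgEquiv_apply, ← Equiv.sum_comp e] using this)
    set v := w ∘ e with hv
    have hv0 : v ≠ 0 := fun h0 => hns' 0 (by rw [h0, mulVec_zero, zero_smul])
    have := H.inK_sub (H.inK_conj hC (H.left v 1)) hC
    rw [trans_diff H.sA, hadj, hall, mul_zero, zero_smul, sub_zero, one_smul, ← wedge] at this
    exact H.not_good_of_wedge hv0 hns' (hall v) this hgood
  push Not at hall
  obtain ⟨v, hs⟩ := hall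
  have hv0 : v ≠ 0 := fun h => hs (by rw [h, bf_zero_left])
  have hdiff : ∀ d : F, InK JA JB M (d • (rk JA v (adj JA JA C *ᵥ v) - rk JA (C *ᵥ v) v) -
      (d * d * bf JA v (C *ᵥ v)) • rk JA v v) := fun d => by
    have := H.inK_sub (H.inK_conj hC (H.left v d)) hC
    rwa [trans_diff H.sA] at this
  rcases hq with ⟨r, hr0, hr1⟩ | ⟨h2, hα⟩
  · have h1 := H.inK_sub (H.inK_smul (hdiff 1) r) (hdiff r)
    refine hv0 (hgood v ?_)
    have hne : (r * r - r) * bf JA v (C *ᵥ v) ≠ 0 := mul_ne_zero (by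
      rw [show r * r - r = r * (r - 1) by ring]; exact mul_ne_zero hr0 (sub_ne_zero.2 hr1)) hs
    have h3 := H.inK_smul h1 ((r * r - r) * bf JA v (C *ᵥ v))⁻¹
    convert h3 using 1
    match_scalars
    · field_simp
      ring
    all_goals ring
  · have hX := hdiff 1
    obtain ⟨w, hw0, hw⟩ := exists_perp (J := JA) ![v, C *ᵥ v, adj JA JA C *ᵥ v] (by simp; omega)
    have w1 : bf JA v w = 0 := hw 0
    have w2 : bf JA (C *ᵥ v) w = 0 := hw 1
    have w3 : bf JA (adj JA JA C *ᵥ v) w = 0 := hw 2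
    have hwv : ∀ t : F, w ≠ t • v := fun t ht => by
      rcases eq_or_ne t 0 with rfl | ht0
      · exact hw0 (by rw [ht, zero_smul])
      · rw [ht, bf_smul_right] at w2
        exact hs (H.sA.zero_comm.1 ((mul_eq_zero.1 w2).resolve_left ht0))
    set g := 1 + rk JA (v + w) (v + w) with hg
    have h2' := H.inK_sub (H.inK_conj hX (H.left (v + w) 1)) hX
    rw [one_smul, ← hg] at h2'
    simp only [one_smul, one_mul, Matrix.mul_sub, Matrix.sub_mul, Matrix.mul_smul, Matrix.smul_mul,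
      rk_conj H.sA] at h2'
    have gv : g *ᵥ v = v := by
      rw [hg, add_mulVec, one_mulVec, rk_mulVec, bf_add_left, H.sA.self, H.sA.zero_comm.1 w1, add_zero, zero_smul,
        add_zero]
    have s1 : bf JA (v + w) (C *ᵥ v) = bf JA v (C *ᵥ v) := by
      rw [bf_add_left, H.sA.zero_comm.1 w2, add_zero]
    have s2 : bf JA (v + w) (adj JA JA C *ᵥ v) = -bf JA v (C *ᵥ v) := by
      rw [bf_add_left, H.sA.zero_comm.1 w3, add_zero, ← bf_adj' H.sA, H.sA.swap v]
    have gu : g *ᵥ (C *ᵥ v) = C *ᵥ v + bf JA v (C *ᵥ v) • (v + w) := by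
      rw [hg, add_mulVec, one_mulVec, rk_mulVec, s1]
    have gu' : g *ᵥ (adj JA JA C *ᵥ v) = adj JA JA C *ᵥ v + (-bf JA v (C *ᵥ v)) • (v + w) := by
      rw [hg, add_mulVec, one_mulVec, rk_mulVec, s2]
    rw [gv, gu, gu'] at h2'
    refine H.not_good_of_wedge hv0 hwv w1 ?_ hgood
    have h3 := H.inK_smul h2' (bf JA v (C *ᵥ v))⁻¹
    convert h3 using 1
    simp only [wedge, rk_add_left, rk_add_right, rk_smul_left, rk_smul_right]
    match_scalars
    all_goals field_simp
    all_goals first | ring1 | linear_combination h2 | linear_combination (-1 : F) * h2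

variable [Nonempty α] (hsc : ∀ C : Matrix α α F, InK JA JB M C → ∃ c : F, C = c • (1 : Matrix α α F))
include hsc

/-- Only scalars occur in layers. -/
theorem Over.layer_scalar {z : Fin b → F} (hz0 : z ≠ 0) {G : Matrix α α F} (hel : InM M (el JA JB z 0 G)) :
    ∃ c : F, G = c • (1 : Matrix α α F) := by
  rw [el_scalar] at hel
  obtain ⟨z', hz'⟩ := H.sB.exists_one hz0
  have halt : ∀ x, bf JA x (G *ᵥ x) = 0 := by
    intro x
    obtain ⟨y, hy, hyX⟩ := hel
    have e := H.qiso y hy (pv x z')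
    rw [hyX, add_mulVec, one_mulVec, kron_pv, rk_mulVec, hz', one_smul, H.qpolar, H.qpure, H.qpure, bf_pv] at e
    have : bf JB z' z ≠ 0 := fun h => one_ne_zero (hz'.symm.trans (H.sB.zero_comm.1 h))
    exact (mul_eq_zero.1 (by linear_combination e : bf JA x (G *ᵥ x) * bf JB z' z = 0)).resolve_right this
  have hadj : adj JA JA G = G := ext_bf H.sA fun u v => by
    rw [bf_adj H.sA]
    have h1 := halt (u + v)
    rw [mulVec_add, bf_add_left, bf_add_right, bf_add_right, halt, halt, H.sA.swap (G *ᵥ u) v] at h1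
    linear_combination h1
  have hall : ∀ w : Fin b → F, InM M (1 + G ⊗ₖ rk JB w w) := by
    intro w
    rcases eq_or_ne w 0 with rfl | hw0
    · rw [rk_zero_left, kronecker_zero, add_zero]; exact InM.one
    obtain ⟨k, hk, -, hkz⟩ := H.right_map hz0 hw0 one_ne_zero
    have := H.conj_kron hel hk
    rwa [rk_conj H.sB, hkz, one_smul, Matrix.one_mul, adj_one H.sA.unit, Matrix.mul_one] at this
  refine hsc G fun w η hη => ⟨0, ?_⟩
  have hsq : ∀ w : Fin b → F, (G ⊗ₖ rk JB w w) * (G ⊗ₖ rk JB w w) = 0 := fun w => by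
    rw [← mul_kronecker_mul, rk_mul, H.sB.self, zero_smul, kronecker_zero]
  have := ((hall (w + η)).mul ((hall w).neg (hsq w))).mul ((hall η).neg (hsq η))
  rw [el_lft H.sA, hadj, zero_kronecker, add_zero]
  convert this using 1
  have hη' := H.sB.zero_comm.1 hη
  simp only [rk_add_left, rk_add_right, kronecker_add, Matrix.mul_sub, Matrix.sub_mul, Matrix.add_mul, Matrix.mul_add,
    Matrix.one_mul, Matrix.mul_one, ← mul_kronecker_mul, rk_mul, H.sB.self, hη, hη', zero_smul, kronecker_zero,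
    Matrix.zero_mul]
  abel

/-- Middle parts come from the second factor up to the centre. -/
theorem Over.el_contract {z ξ : Fin b → F} (hz0 : z ≠ 0) {A : Matrix Ix α F} {G : Matrix α α F}
    (hA : phi α JB z * A = 0) (hel : InM M (el JA JB z A G)) (hξ : bf JB z ξ = 0) :
    ∃ c : F, phi α JB ξ * A = c • (1 : Matrix α α F) :=
  hsc _ (H.inK_contract hA hel hz0 hξ)

end Cfsg.Agent.H99.TensorS
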