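import Cfsg.Agent.H99.TensorS.Group

/-!
Facts on a symplectic space given by a Gram matrix: adjoints, separation and orthogonal pairs.
-/

set_option autoImplicit false
set_option linter.unusedSectionVars false

namespace Cfsg.Agent.H99.TensorS

open Matrix Tensor
open scoped Kronecker

variable {F : Type*} [Field F] {ι : Type} [Fintype ι] [DecidableEq ι] {J : Matrix ι ι F}

theorem adj_neg {m n : Type} [Fintype m] [DecidableEq m] [Fintype n] (J₁ : Matrix m m F) (J₂ : Matrix n n F)
    (X : Matrix n m F) : adj J₁ J₂ (-X) = -adj J₁ J₂ X := by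
  rw [adj, adj, transpose_neg, Matrix.mul_neg, Matrix.neg_mul]

theorem adj_sub {m n : Type} [Fintype m] [DecidableEq m] [Fintype n] (J₁ : Matrix m m F) (J₂ : Matrix n n F)
    (X Y : Matrix n m F) : adj J₁ J₂ (X - Y) = adj J₁ J₂ X - adj J₁ J₂ Y := by
  rw [adj, adj, adj, transpose_sub, Matrix.mul_sub, Matrix.sub_mul]

theorem adj_self_adj (hJ : SympMat J) (X : Matrix ι ι F) : adj J J (adj J J X) = X := by
  rw [adj_adj hJ.unit hJ.unit (ε₁ := -1) (ε₂ := -1) (by rw [hJ.skew, neg_one_smul]) (by rw [hJ.skew, neg_one_smul])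
    (by ring), neg_one_mul, neg_neg, one_smul]

theorem bf_adj (hJ : SympMat J) (X : Matrix ι ι F) (u v : ι → F) : bf J (adj J J X *ᵥ u) v = bf J u (X *ᵥ v) := by
  rw [bf, bf, adj_vecMul hJ, dotProduct_mulVec]

theorem bf_adj' (hJ : SympMat J) (X : Matrix ι ι F) (u v : ι → F) : bf J (X *ᵥ u) v = bf J u (adj J J X *ᵥ v) := by
  rw [← bf_adj hJ, adj_self_adj hJ]

theorem ext_bf (hJ : SympMat J) {X Y : Matrix ι ι F} (h : ∀ u v, bf J (X *ᵥ u) v = bf J (Y *ᵥ u) v) : X = Y :=
  Matrix.ext_of_mulVec_single fun j => sub_eq_zero.1 (hJ.eq_zero fun v => by rw [bf_sub_left, h, sub_self])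

theorem rk_mul_right (hJ : SympMat J) (u v : ι → F) (X : Matrix ι ι F) :
    rk J u v * X = rk J u (adj J J X *ᵥ v) := by
  rw [rk, rk, vecMulVec_mul, adj_vecMul hJ]

theorem mul_rk (X : Matrix ι ι F) (u v : ι → F) : X * rk J u v = rk J (X *ᵥ u) v := by
  rw [rk, rk, mul_vecMulVec]

/-- A vector that separates a subspace from a vector outside it. -/
theorem SympMat.sep (hJ : SympMat J) {S : Submodule F (ι → F)} {a : ι → F} (ha : a ∉ S) :
    ∃ e, (∀ s ∈ S, bf J e s = 0) ∧ bf J e a = 1 := by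
  obtain ⟨f, hfa, hf⟩ := Submodule.exists_le_ker_of_notMem ha
  set φ : ι → F := fun i => f (Pi.single i 1) with hφ
  have hfx : ∀ x, f x = φ ⬝ᵥ x := fun x => by
    conv_lhs => rw [pi_eq_sum_univ' x]
    rw [map_sum, dotProduct]
    exact Finset.sum_congr rfl fun i _ => by rw [map_smul, smul_eq_mul, mul_comm, hφ]
  have he : ∀ x, bf J (φ ᵥ* J⁻¹) x = f x := fun x => by
    rw [hfx, bf, vecMul_vecMul, nonsing_inv_mul J hJ.unit, vecMul_one]
  refine ⟨(f a)⁻¹ • (φ ᵥ* J⁻¹), fun s hs => ?_, ?_⟩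
  · rw [bf_smul_left, he, LinearMap.mem_ker.1 (hf hs), mul_zero]
  · rw [bf_smul_left, he, inv_mul_cancel₀ hfa]

/-- Separation from a line. -/
theorem SympMat.sep₁ (hJ : SympMat J) {z a : ι → F} (ha : ∀ t : F, a ≠ t • z) :
    ∃ e, bf J z e = 0 ∧ bf J e z = 0 ∧ bf J e a = 1 := by
  obtain ⟨e, h1, h2⟩ := hJ.sep (S := Submodule.span F {z}) (a := a) fun h => by
    obtain ⟨t, ht⟩ := Submodule.mem_span_singleton.1 h
    exact ha t ht.symm
  have := h1 z (Submodule.mem_span_singleton_self z)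
  exact ⟨e, hJ.zero_comm.1 this, this, h2⟩

/-- A vector orthogonal to a short family outside a small subspace. -/
theorem exists_off {k : ℕ} (v : Fin k → (ι → F)) (S : Submodule F (ι → F))
    (h : Module.finrank F S + k < Fintype.card ι) : ∃ x, x ∉ S ∧ ∀ i, bf J (v i) x = 0 := by
  obtain ⟨U, hU, hUv⟩ := finrank_perp (J := J) v
  by_contra hc
  push Not at hc
  have : U ≤ S := fun x hx => by
    by_contra hxS
    obtain ⟨i, hi⟩ := hc x hxS
    exact hi (hUv x hx i)
  have := Submodule.finrank_mono this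
  omega

/-- A hyperbolic pair orthogonal to a short family. -/
theorem SympMat.exists_pair (hJ : SympMat J) {k : ℕ} (v : Fin k → (ι → F)) (h : 2 * k < Fintype.card ι) :
    ∃ η η', (∀ i, bf J (v i) η = 0) ∧ (∀ i, bf J (v i) η' = 0) ∧ bf J η η' = 1 := by
  have h1 : Module.finrank F (Submodule.span F (Set.range v)) ≤ k :=
    (finrank_range_le_card v).trans (by rw [Fintype.card_fin])
  obtain ⟨η, hη, hηv⟩ := exists_off (J := J) v (Submodule.span F (Set.range v)) (by omega)
  obtain ⟨e, he, he'⟩ := hJ.sep hη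
  refine ⟨η, -e, hηv, fun i => ?_, ?_⟩
  · rw [← neg_one_smul F e, bf_smul_right, hJ.zero_comm.1 (he _ (Submodule.subset_span ⟨i, rfl⟩)), mul_zero]
  · rw [← neg_one_smul F e, bf_smul_right, hJ.swap e η, he']; ring

/-- An orthogonal complement to a line inside its perpendicular. -/
theorem SympMat.exists_indep (hJ : SympMat J) (h : 3 ≤ Fintype.card ι) (z : ι → F) :
    ∃ η, bf J z η = 0 ∧ ∀ t : F, η ≠ t • z := by
  obtain ⟨η, hη, hp⟩ := exists_off (J := J) ![z] (Submodule.span F {z}) (by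
    have h1 : Module.finrank F (Submodule.span F ({z} : Set (ι → F))) ≤ 1 := by
      by_cases hz : z = 0
      · subst hz; rw [Submodule.span_zero_singleton, finrank_bot]; omega
      · rw [finrank_span_singleton hz]
    omega)
  exact ⟨η, hp 0, fun t ht => hη (Submodule.mem_span_singleton.2 ⟨t, ht.symm⟩)⟩

/-- The alternating rank two map. -/
def wedge (J : Matrix ι ι F) (x y : ι → F) : Matrix ι ι F := rk J x y - rk J y x

theorem adj_wedge (hJ : SympMat J) (x y : ι → F) : adj J J (wedge J x y) = wedge J x y := by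
  rw [wedge, adj_sub, adj_rk hJ, adj_rk hJ]; abel

theorem wedge_conj (hJ : SympMat J) (X : Matrix ι ι F) (u v : ι → F) :
    X * wedge J u v * adj J J X = wedge J (X *ᵥ u) (X *ᵥ v) := by
  rw [wedge, Matrix.mul_sub, Matrix.sub_mul, rk_conj hJ, rk_conj hJ, ← wedge]

theorem wedge_ne (hJ : SympMat J) {x y : ι → F} (hx : x ≠ 0) (hy : ∀ t : F, y ≠ t • x) : wedge J x y ≠ 0 := by
  intro h
  obtain ⟨e, -, hex, hey⟩ := hJ.sep₁ hy
  have h1 := congrArg (· *ᵥ e) h
  simp only [wedge, sub_mulVec, rk_mulVec, zero_mulVec, hJ.swap e x, hJ.swap e y, hex, hey, neg_zero, zero_smul,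
    sub_zero] at h1
  exact hx (by simpa using h1)

theorem wedge_sq (hJ : SympMat J) {x y : ι → F} (h : bf J x y = 0) : wedge J x y * wedge J x y = 0 := by
  simp only [wedge, Matrix.mul_sub, Matrix.sub_mul, rk_mul, hJ.self, h, hJ.zero_comm.1 h, zero_smul, sub_zero]

theorem wedge_smul_right (c : F) (x y : ι → F) : wedge J x (c • y) = c • wedge J x y := by
  rw [wedge, wedge, rk_smul_left, rk_smul_right, smul_sub]

theorem wedge_smul_left (c : F) (x y : ι → F) : wedge J (c • x) y = c • wedge J x y := by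
  rw [wedge, wedge, rk_smul_left, rk_smul_right, smul_sub]

theorem wedge_add_right (x y y' : ι → F) : wedge J x (y + y') = wedge J x y + wedge J x y' := by
  rw [wedge, wedge, wedge, rk_add_left, rk_add_right]; abel

theorem wedge_add_left (x x' y : ι → F) : wedge J (x + x') y = wedge J x y + wedge J x' y := by
  rw [wedge, wedge, wedge, rk_add_left, rk_add_right]; abel

theorem wedge_swap (x y : ι → F) : wedge J y x = -wedge J x y := by
  rw [wedge, wedge, neg_sub]

theorem wedge_self (x : ι → F) : wedge J x x = 0 := sub_self _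

/-- The difference of a rank one matrix under conjugation by a transvection. -/
theorem trans_diff (hJ : SympMat J) (C : Matrix ι ι F) (v : ι → F) (d : F) :
    (1 + d • rk J v v) * C * adj J J (1 + d • rk J v v) - C =
      d • (rk J v (adj J J C *ᵥ v) - rk J (C *ᵥ v) v) - (d * d * bf J v (C *ᵥ v)) • rk J v v := by
  have e : rk J v v * C * rk J v v = bf J v (C *ᵥ v) • rk J v v := by
    rw [rk_mul_right hJ, rk_mul, bf_adj hJ]
  rw [adj_add, adj_one hJ.unit, adj_smul, adj_rk hJ]
  simp only [Matrix.mul_add, Matrix.add_mul, Matrix.one_mul, Matrix.mul_one, smul_neg, Matrix.mul_neg,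
    Matrix.smul_mul, Matrix.mul_smul, e]
  simp only [mul_rk, rk_mul_right hJ]
  module

end Cfsg.Agent.H99.TensorS
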